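import Mathlib
import Cfsg.Agent.S4212
import Cfsg.Agent.Lib.Helper24.NormMap
import Cfsg.Agent.Lib.Helper90.SylowAux

/-!
Generic lemmas for the Sylow `3`-normaliser of a simple group of order `7920` (helper44):
transfer into an abelian Sylow subgroup, the Sylow subgroups through an element, and orbits
of equal size.
-/

set_option autoImplicit false

namespace Cfsg.Agent.Lib.Helper44.M11N3

variable {G : Type*} [Group G]

open scoped IsMulCommutative in
/-- In a simple group of non-prime order, no nontrivial element of an abelian Sylow subgroup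
is central in the normaliser of that Sylow subgroup (transfer). -/
theorem eq_one_of_central_normalizer [Finite G] [IsSimpleGroup G] (hnp : ¬ (Nat.card G).Prime)
    {p : ℕ} [Fact p.Prime] (S : Sylow p G)
    (hS : ∀ a ∈ (S : Subgroup G), ∀ b ∈ (S : Subgroup G), a * b = b * a)
    (x : G) (hx : x ∈ (S : Subgroup G))
    (hc : ∀ n ∈ Subgroup.normalizer ((S : Subgroup G) : Set G), n * x = x * n) : x = 1 := by
  have hp : p.Prime := Fact.out
  have hP : IsMulCommutative (S : Subgroup G) :=
    ⟨⟨fun a b => Subtype.ext (hS a a.2 b b.2)⟩⟩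
  have hzC : x ∈ Subgroup.centralizer
      (Subgroup.normalizer ((S : Subgroup G) : Set G) : Set G) := by
    rw [Subgroup.mem_centralizer_iff]
    intro n hn
    exact hc n hn
  have htr := Cfsg.Agent.Lib.Helper24.transfer_eq_pow_of_central S hP
    (MonoidHom.id ↥(S : Subgroup G)) x hx hzC
  rcases (MonoidHom.normal_ker
      (MonoidHom.transfer (MonoidHom.id ↥(S : Subgroup G)))).eq_bot_or_eq_top with hker | hker
  · -- the transfer is injective, so `G` is abelian
    have hinj := (MonoidHom.ker_eq_bot_iff _).mp hker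
    have hcomm : ∀ a b : G, a * b = b * a := by
      intro a b
      apply hinj
      rw [map_mul, map_mul, mul_comm]
    let cg : CommGroup G := { ‹Group G› with mul_comm := hcomm }
    exact absurd (IsSimpleGroup.prime_card (α := G)) hnp
  · have h1 : MonoidHom.transfer (MonoidHom.id ↥(S : Subgroup G)) x = 1 := by
      have : x ∈ (MonoidHom.transfer (MonoidHom.id ↥(S : Subgroup G))).ker := by
        rw [hker]; exact Subgroup.mem_top x
      exact MonoidHom.mem_ker.mp this
    rw [htr] at h1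
    have h2 : x ^ (S : Subgroup G).index = 1 := by
      have := congrArg Subtype.val h1
      simpa using this
    obtain ⟨k, hk⟩ := S.isPGroup' ⟨x, hx⟩
    have h3 : x ^ p ^ k = 1 := by
      have := congrArg Subtype.val hk
      simpa using this
    have h4 : orderOf x ∣ p ^ k := orderOf_dvd_of_pow_eq_one h3
    have h5 : orderOf x ∣ (S : Subgroup G).index := orderOf_dvd_of_pow_eq_one h2
    obtain ⟨j, -, hj⟩ := (Nat.dvd_prime_pow hp).mp h4
    rcases Nat.eq_zero_or_pos j with h0 | hpos
    · rw [h0, pow_zero] at hj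
      exact orderOf_eq_one_iff.mp hj
    · exfalso
      apply S.not_dvd_index
      rw [hj] at h5
      exact (dvd_pow_self p hpos.ne').trans h5

/-- Two Sylow subgroups contained in a subgroup `H` are conjugate by an element of `H`. -/
theorem exists_smul_eq_of_le [Finite G] {p : ℕ} [Fact p.Prime] (H : Subgroup G)
    (S S' : Sylow p G) (hS : (S : Subgroup G) ≤ H) (hS' : (S' : Subgroup G) ≤ H) :
    ∃ h ∈ H, h • S = S' := by
  obtain ⟨h, hh⟩ := MulAction.exists_smul_eq ↥H (S.subtype hS) (S'.subtype hS')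
  refine ⟨(h : G), h.2, ?_⟩
  apply Sylow.ext
  apply S'.is_maximal' ((h : G) • S).isPGroup'
  intro y hy
  have hyH : y ∈ H := hS' hy
  have h1 : (⟨y, hyH⟩ : ↥H) ∈ ((S'.subtype hS' : Sylow p ↥H) : Subgroup ↥H) := by
    rw [Sylow.coe_subtype, Subgroup.mem_subgroupOf]
    exact hy
  rw [← hh, Cfsg.Agent.Lib.Helper90.mem_sylow_smul_iff, Sylow.coe_subtype,
    Subgroup.mem_subgroupOf] at h1
  rw [Cfsg.Agent.Lib.Helper90.mem_sylow_smul_iff]
  exact h1

/-- The Sylow `p`-subgroups through an element `x` of an abelian Sylow `p`-subgroup `S` form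
one orbit under `C(x)`, with stabiliser `C(x) ∩ N(S)`. -/
theorem card_sylow_mem_mul [Finite G] {p : ℕ} [Fact p.Prime] (S : Sylow p G)
    (hS : ∀ a ∈ (S : Subgroup G), ∀ b ∈ (S : Subgroup G), a * b = b * a)
    (x : G) (hx : x ∈ (S : Subgroup G)) :
    Nat.card {S' : Sylow p G // x ∈ S'} *
        Nat.card ↥(Subgroup.centralizer ({x} : Set G) ⊓
          Subgroup.normalizer ((S : Subgroup G) : Set G))
      = Nat.card (Subgroup.centralizer ({x} : Set G)) := by
  classical
  have hmemC : ∀ h : G, h ∈ Subgroup.centralizer ({x} : Set G) ↔ x * h = h * x := by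
    intro h
    rw [Subgroup.mem_centralizer_iff]
    constructor
    · intro hh; exact hh x rfl
    · intro hh y hy
      rw [Set.mem_singleton_iff] at hy
      subst hy
      exact hh
  -- every Sylow subgroup is abelian
  have hab : ∀ S' : Sylow p G, ∀ a ∈ (S' : Subgroup G), ∀ b ∈ (S' : Subgroup G),
      a * b = b * a := by
    intro S' a ha b hb
    obtain ⟨g, hg⟩ := MulAction.exists_smul_eq G S S'
    rw [← hg, Cfsg.Agent.Lib.Helper90.mem_sylow_smul_iff] at ha hb
    have h1 := hS _ ha _ hb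
    have h2 : a * b = g * ((g⁻¹ * a * g) * (g⁻¹ * b * g)) * g⁻¹ := by group
    have h3 : b * a = g * ((g⁻¹ * b * g) * (g⁻¹ * a * g)) * g⁻¹ := by group
    rw [h2, h3, h1]
  have hle : ∀ S' : Sylow p G, x ∈ S' →
      (S' : Subgroup G) ≤ Subgroup.centralizer ({x} : Set G) := by
    intro S' hx' s hs
    rw [hmemC]
    exact hab S' x hx' s hs
  have hmem : ∀ h : ↥(Subgroup.centralizer ({x} : Set G)), x ∈ ((h : G) • S : Sylow p G) := by
    intro h
    show x ∈ (((h : G) • S : Sylow p G) : Subgroup G)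
    rw [Cfsg.Agent.Lib.Helper90.mem_sylow_smul_iff]
    have h1 := (hmemC h).mp h.2
    have h2 : (h : G)⁻¹ * x * h = x := by
      rw [mul_assoc, h1, ← mul_assoc, inv_mul_cancel, one_mul]
    rw [h2]
    exact hx
  have key := Cfsg.Agent.S4212.card_eq_mul_of_fiber
    (fun h : ↥(Subgroup.centralizer ({x} : Set G)) =>
      (⟨(h : G) • S, hmem h⟩ : {S' : Sylow p G // x ∈ S'}))
    (Nat.card ↥(Subgroup.centralizer ({x} : Set G) ⊓
          Subgroup.normalizer ((S : Subgroup G) : Set G))) ?_
  · exact key.symm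
  · rintro ⟨S', hx'⟩
    obtain ⟨h0, hh0, hh0S⟩ := exists_smul_eq_of_le (Subgroup.centralizer ({x} : Set G)) S S'
      (hle S hx) (hle S' hx')
    apply Nat.card_congr
    refine ⟨fun a => ⟨h0⁻¹ * (a.1 : G), ?_, ?_⟩, fun k => ⟨⟨h0 * (k : G), ?_⟩, ?_⟩, ?_, ?_⟩
    · exact Subgroup.mul_mem _ (Subgroup.inv_mem _ hh0) a.1.2
    · have h1 : ((a.1 : G) • S : Sylow p G) = S' := congrArg Subtype.val a.2
      show h0⁻¹ * (a.1 : G) ∈ Subgroup.normalizer ((S : Subgroup G) : Set G)
      exact Sylow.smul_eq_iff_mem_normalizer.mp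
        (by rw [mul_smul, h1, ← hh0S, inv_smul_smul])
    · exact Subgroup.mul_mem _ hh0 k.2.1
    · apply Subtype.ext
      show ((h0 * (k : G)) • S : Sylow p G) = S'
      rw [mul_smul, Sylow.smul_eq_iff_mem_normalizer.mpr k.2.2, hh0S]
    · intro a
      apply Subtype.ext
      apply Subtype.ext
      show h0 * (h0⁻¹ * (a.1 : G)) = (a.1 : G)
      group
    · intro k
      apply Subtype.ext
      show h0⁻¹ * (h0 * (k : G)) = (k : G)
      group

/-- If a subgroup `N` acts by conjugation on a set `A` and every point stabiliser is the same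
subgroup `K`, then `|N : K|` divides `|A|`. -/
theorem dvd_card_of_conj_invariant [Finite G] (N K : Subgroup G) (A : Set G) (r : ℕ)
    (hA : ∀ n ∈ N, ∀ x ∈ A, n * x * n⁻¹ ∈ A)
    (hK : ∀ x ∈ A, ∀ n ∈ N, (n * x = x * n ↔ n ∈ K))
    (hKN : K ≤ N)
    (hr : Nat.card N = Nat.card K * r) : r ∣ Nat.card A := by
  classical
  let act : MulAction ↥N ↥A :=
    { smul := fun n a => ⟨(n : G) * (a : G) * (n : G)⁻¹, hA n n.2 a a.2⟩
      one_smul := fun a => Subtype.ext (by
        show ((1 : ↥N) : G) * (a : G) * ((1 : ↥N) : G)⁻¹ = a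
        simp)
      mul_smul := fun m n a => Subtype.ext (by
        show ((m * n : ↥N) : G) * (a : G) * ((m * n : ↥N) : G)⁻¹
          = (m : G) * ((n : G) * (a : G) * (n : G)⁻¹) * (m : G)⁻¹
        simp [mul_assoc]) }
  have hsm : ∀ (n : ↥N) (a : ↥A), ((n • a : ↥A) : G) = (n : G) * (a : G) * (n : G)⁻¹ :=
    fun _ _ => rfl
  have hstab : ∀ a : ↥A, Nat.card (MulAction.stabilizer ↥N a) = Nat.card K := by
    intro a
    have h1 : MulAction.stabilizer ↥N a = K.subgroupOf N := by
      ext n
      rw [MulAction.mem_stabilizer_iff, Subgroup.mem_subgroupOf, ← hK a a.2 n n.2,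
        Subtype.ext_iff, hsm]
      exact mul_inv_eq_iff_eq_mul
    rw [h1]
    exact Nat.card_congr (Subgroup.subgroupOfEquivOfLe hKN).toEquiv
  have hK0 : 0 < Nat.card K := Nat.card_pos
  have horb : ∀ a : ↥A, Nat.card (MulAction.orbit ↥N a) = r := by
    intro a
    have h1 := Nat.card_congr (MulAction.orbitProdStabilizerEquivGroup ↥N a)
    rw [Nat.card_prod, hstab a, hr, mul_comm] at h1
    exact Nat.eq_of_mul_eq_mul_left hK0 h1
  have : Fintype (MulAction.orbitRel.Quotient ↥N ↥A) := Fintype.ofFinite _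
  rw [Nat.card_congr (MulAction.selfEquivSigmaOrbits ↥N ↥A), Nat.card_sigma]
  exact Finset.dvd_sum (fun ω _ => (horb _).symm ▸ dvd_rfl)

end Cfsg.Agent.Lib.Helper44.M11N3
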