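import Mathlib
import Cfsg.Agent.Lib.Helper44.M11N3a
import Cfsg.Agent.Lib.Helper91.M11Inv2
import Cfsg.Agent.Lib.Helper22.AbSylow
import Cfsg.Agent.Lib.Helper24.NormCent
import Cfsg.Agent.Lib.Helper52.PG7920

/-!
The Sylow `3`-subgroups of a simple group of order `7920` (helper44): they are elementary
abelian of order `9`, self-centralising, and their normaliser has order `36` or `144`.
Given that all elements of order `3` are conjugate with centraliser of order `18`, the
normaliser has order `144`.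
-/

set_option autoImplicit false

namespace Cfsg.Agent.Lib.Helper44.M11N3

open Cfsg

variable {G : Type*} [Group G]

/-- membership in the centraliser of a singleton -/
theorem mem_cz {x h : G} : h ∈ Subgroup.centralizer ({x} : Set G) ↔ x * h = h * x := by
  rw [Subgroup.mem_centralizer_iff]
  constructor
  · intro hh; exact hh x rfl
  · intro hh y hy
    rw [Set.mem_singleton_iff] at hy
    subst hy
    exact hh

/-- the centraliser of an element of prime order `p`, when the Sylow `p`-subgroups have order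
`p` and are self-centralising -/
theorem card_centralizer_of_prime {p : ℕ} [Fact p.Prime]
    (hsyl : ∀ Q : Sylow p G, Nat.card (Q : Subgroup G) = p ∧
      Subgroup.centralizer ((Q : Subgroup G) : Set G) = (Q : Subgroup G))
    (y : G) (hy : orderOf y = p) : Nat.card (Subgroup.centralizer ({y} : Set G)) = p := by
  have hp : p.Prime := Fact.out
  have hpg : IsPGroup p (Subgroup.zpowers y) := by
    apply IsPGroup.of_card (n := 1)
    rw [Nat.card_zpowers, hy, pow_one]
  obtain ⟨Q, hQ⟩ := hpg.exists_le_sylow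
  have hyQ : y ∈ (Q : Subgroup G) := hQ (Subgroup.mem_zpowers y)
  have hy1 : y ≠ 1 := by
    intro h
    rw [h, orderOf_one] at hy
    exact hp.one_lt.ne hy
  rw [Cfsg.Agent.Lib.Helper91.M11.centralizer_singleton_eq hp (Q : Subgroup G) (hsyl Q).1 y hyQ
    hy1, (hsyl Q).2]
  exact (hsyl Q).1

section M11

variable [Finite G]

theorem card_sylow3 (hG : Nat.card G = 7920) (P : Sylow 3 G) :
    Nat.card (P : Subgroup G) = 9 := by
  have := Cfsg.Agent.Lib.Helper17.card_sylow_eq_of_card_eq 3 2 880 (by rw [hG]; norm_num) (by norm_num) P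
  simpa using this

theorem sylow3_comm (hG : Nat.card G = 7920) (P : Sylow 3 G) :
    ∀ a ∈ (P : Subgroup G), ∀ b ∈ (P : Subgroup G), a * b = b * a := by
  intro a ha b hb
  have h := (IsPGroup.isMulCommutative_of_card_eq_prime_sq (p := 3) (G := ↥(P : Subgroup G))
    (by rw [card_sylow3 hG P]; norm_num)).is_comm.comm ⟨a, ha⟩ ⟨b, hb⟩
  exact congrArg Subtype.val h

theorem exists_ne_one_sylow3 (hG : Nat.card G = 7920) (P : Sylow 3 G) :
    ∃ x ∈ (P : Subgroup G), x ≠ 1 := by
  have hne : (P : Subgroup G) ≠ ⊥ := by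
    intro h
    have h1 := card_sylow3 hG P
    rw [h, Subgroup.card_bot] at h1
    omega
  obtain ⟨w, hw⟩ := Subgroup.ne_bot_iff_exists_ne_one.mp hne
  exact ⟨(w : G), w.2, fun h => hw (Subtype.ext h)⟩

theorem sylow3_le_cz (hG : Nat.card G = 7920) (P : Sylow 3 G) (x : G)
    (hx : x ∈ (P : Subgroup G)) : (P : Subgroup G) ≤ Subgroup.centralizer ({x} : Set G) :=
  fun s hs => mem_cz.mpr (sylow3_comm hG P x hx s hs)

/-- a nonidentity element of a Sylow `3`-subgroup has order divisible by `3` -/
theorem three_dvd_orderOf (hG : Nat.card G = 7920) (P : Sylow 3 G) (x : G)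
    (hx : x ∈ (P : Subgroup G)) (hx1 : x ≠ 1) : 3 ∣ orderOf x := by
  have h1 : orderOf x ∣ 3 ^ 2 := by
    have := Subgroup.orderOf_dvd_natCard _ hx
    rwa [card_sylow3 hG P] at this
  obtain ⟨j, hj, hjx⟩ := (Nat.dvd_prime_pow Nat.prime_three).mp h1
  rcases Nat.eq_zero_or_pos j with h0 | hpos
  · rw [h0, pow_zero] at hjx
    exact absurd (orderOf_eq_one_iff.mp hjx) hx1
  · rw [hjx]
    exact dvd_pow_self 3 hpos.ne'

variable [IsSimpleGroup G]

theorem cz_five (hG : Nat.card G = 7920) (y : G) (hy : orderOf y = 5) :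
    Nat.card (Subgroup.centralizer ({y} : Set G)) = 5 := by
  have : Fact (Nat.Prime 5) := ⟨by norm_num⟩
  exact card_centralizer_of_prime
    (fun Q => ⟨(Cfsg.Agent.Lib.Helper91.M11.sylow5_full hG Q).1,
      (Cfsg.Agent.Lib.Helper91.M11.sylow5_full hG Q).2.2.1⟩) y hy

theorem cz_eleven (hG : Nat.card G = 7920) (y : G) (hy : orderOf y = 11) :
    Nat.card (Subgroup.centralizer ({y} : Set G)) = 11 := by
  have : Fact (Nat.Prime 11) := ⟨by norm_num⟩
  exact card_centralizer_of_prime
    (fun Q => ⟨(Cfsg.Agent.Lib.Helper91.M11.sylow11 hG Q).1,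
      (Cfsg.Agent.Lib.Helper91.M11.sylow11 hG Q).2.2.1⟩) y hy

/-- centralisers of nonidentity `3`-elements have order `9 * 2 ^ a` -/
theorem cz_three_elt (hG : Nat.card G = 7920) (P : Sylow 3 G) (x : G)
    (hx : x ∈ (P : Subgroup G)) (hx1 : x ≠ 1) :
    9 ∣ Nat.card (Subgroup.centralizer ({x} : Set G)) ∧
      Nat.card (Subgroup.centralizer ({x} : Set G)) ∣ 144 := by
  have h9 : 9 ∣ Nat.card (Subgroup.centralizer ({x} : Set G)) := by
    have := Subgroup.card_dvd_of_le (sylow3_le_cz hG P x hx)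
    rwa [card_sylow3 hG P] at this
  refine ⟨h9, ?_⟩
  have hdvd : Nat.card (Subgroup.centralizer ({x} : Set G)) ∣ 144 * 55 := by
    have := Subgroup.card_subgroup_dvd_card (Subgroup.centralizer ({x} : Set G))
    rwa [hG] at this
  have hx3 := three_dvd_orderOf hG P x hx hx1
  have h5 : ¬ 5 ∣ Nat.card (Subgroup.centralizer ({x} : Set G)) := by
    intro h
    have : Fact (Nat.Prime 5) := ⟨by norm_num⟩
    obtain ⟨y, hy⟩ := exists_prime_orderOf_dvd_card' 5 h
    have hy' : orderOf (y : G) = 5 := by rw [Subgroup.orderOf_coe]; exact hy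
    have hxy : x ∈ Subgroup.centralizer ({(y : G)} : Set G) := mem_cz.mpr (mem_cz.mp y.2).symm
    have h1 : orderOf x ∣ 5 := by
      have := Subgroup.orderOf_dvd_natCard _ hxy
      rwa [cz_five hG _ hy'] at this
    have := hx3.trans h1
    omega
  have h11 : ¬ 11 ∣ Nat.card (Subgroup.centralizer ({x} : Set G)) := by
    intro h
    have : Fact (Nat.Prime 11) := ⟨by norm_num⟩
    obtain ⟨y, hy⟩ := exists_prime_orderOf_dvd_card' 11 h
    have hy' : orderOf (y : G) = 11 := by rw [Subgroup.orderOf_coe]; exact hy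
    have hxy : x ∈ Subgroup.centralizer ({(y : G)} : Set G) := mem_cz.mpr (mem_cz.mp y.2).symm
    have h1 : orderOf x ∣ 11 := by
      have := Subgroup.orderOf_dvd_natCard _ hxy
      rwa [cz_eleven hG _ hy'] at this
    have := hx3.trans h1
    omega
  have hc5 : Nat.Coprime (Nat.card (Subgroup.centralizer ({x} : Set G))) 5 :=
    ((Nat.Prime.coprime_iff_not_dvd (by norm_num)).mpr h5).symm
  have hc11 : Nat.Coprime (Nat.card (Subgroup.centralizer ({x} : Set G))) 11 :=
    ((Nat.Prime.coprime_iff_not_dvd (by norm_num)).mpr h11).symm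
  have hc55 : Nat.Coprime (Nat.card (Subgroup.centralizer ({x} : Set G))) 55 :=
    Nat.Coprime.mul_right hc5 hc11
  exact hc55.dvd_of_dvd_mul_right hdvd

/-- Sylow `3`-subgroups are self-centralising -/
theorem centralizer_sylow3 (hG : Nat.card G = 7920) (P : Sylow 3 G) :
    Subgroup.centralizer ((P : Subgroup G) : Set G) = (P : Subgroup G) := by
  have hPC : (P : Subgroup G) ≤ Subgroup.centralizer ((P : Subgroup G) : Set G) := by
    intro s hs
    rw [Subgroup.mem_centralizer_iff]
    intro y hy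
    exact sylow3_comm hG P y hy s hs
  obtain ⟨x, hx, hx1⟩ := exists_ne_one_sylow3 hG P
  have hCx : Subgroup.centralizer ((P : Subgroup G) : Set G) ≤
      Subgroup.centralizer ({x} : Set G) :=
    Subgroup.centralizer_le (Set.singleton_subset_iff.mpr hx)
  have hd144 : Nat.card (Subgroup.centralizer ((P : Subgroup G) : Set G)) ∣ 16 * 9 :=
    (Subgroup.card_dvd_of_le hCx).trans (cz_three_elt hG P x hx hx1).2
  have hd9 : 9 ∣ Nat.card (Subgroup.centralizer ((P : Subgroup G) : Set G)) := by
    have := Subgroup.card_dvd_of_le hPC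
    rwa [card_sylow3 hG P] at this
  have hodd : ¬ 2 ∣ Nat.card (Subgroup.centralizer ((P : Subgroup G) : Set G)) := by
    intro h
    obtain ⟨t, ht⟩ := exists_prime_orderOf_dvd_card' 2 h
    have ht' : orderOf (t : G) = 2 := by rw [Subgroup.orderOf_coe]; exact ht
    have h48 := Cfsg.Agent.Lib.Helper91.M11.card_centralizer_involution hG (t : G) ht'
    have hPt : (P : Subgroup G) ≤ Subgroup.centralizer ({(t : G)} : Set G) := by
      intro s hs
      rw [mem_cz]
      exact ((Subgroup.mem_centralizer_iff.mp t.2) s hs).symm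
    have := Subgroup.card_dvd_of_le hPt
    rw [card_sylow3 hG P, h48] at this
    omega
  have hcop : Nat.Coprime (Nat.card (Subgroup.centralizer ((P : Subgroup G) : Set G))) 16 := by
    have h2 : Nat.Coprime (Nat.card (Subgroup.centralizer ((P : Subgroup G) : Set G))) 2 :=
      ((Nat.Prime.coprime_iff_not_dvd Nat.prime_two).mpr hodd).symm
    exact Nat.Coprime.pow_right 4 h2
  have hd : Nat.card (Subgroup.centralizer ((P : Subgroup G) : Set G)) ∣ 9 :=
    hcop.dvd_of_dvd_mul_left hd144
  have hcard : Nat.card (Subgroup.centralizer ((P : Subgroup G) : Set G)) = 9 :=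
    Nat.dvd_antisymm hd hd9
  exact (Subgroup.eq_of_le_of_card_ge hPC (by rw [hcard, card_sylow3 hG P])).symm

/-- the normaliser of a Sylow `3`-subgroup has order `36` or `144` -/
theorem card_normalizer_sylow3_cases (hG : Nat.card G = 7920) (P : Sylow 3 G) :
    Nat.card (Subgroup.normalizer ((P : Subgroup G) : Set G)) = 36 ∨
      Nat.card (Subgroup.normalizer ((P : Subgroup G) : Set G)) = 144 := by
  have hGn : ¬ (Nat.card G).Prime := by rw [hG]; norm_num
  have hPN : (P : Subgroup G) ≤ Subgroup.normalizer ((P : Subgroup G) : Set G) :=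
    Subgroup.le_normalizer
  have h9 : 9 ∣ Nat.card (Subgroup.normalizer ((P : Subgroup G) : Set G)) := by
    have := Subgroup.card_dvd_of_le hPN
    rwa [card_sylow3 hG P] at this
  have hdvd : Nat.card (Subgroup.normalizer ((P : Subgroup G) : Set G)) ∣ 144 * 55 := by
    have := Subgroup.card_subgroup_dvd_card (Subgroup.normalizer ((P : Subgroup G) : Set G))
    rwa [hG] at this
  have hW : (((P : Subgroup G) : Set G) \ {1}).ncard = 8 := by
    rw [Set.ncard_sdiff_singleton_of_mem (Subgroup.one_mem _)]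
    have : ((P : Subgroup G) : Set G).ncard = 9 := by
      rw [← card_sylow3 hG P]
      exact (Nat.card_coe_set_eq _).symm
    rw [this]
  have hq : ∀ q : ℕ, q.Prime → (q = 5 ∨ q = 11) →
      ¬ q ∣ Nat.card (Subgroup.normalizer ((P : Subgroup G) : Set G)) := by
    intro q hqp hq h
    have : Fact q.Prime := ⟨hqp⟩
    obtain ⟨y, hy⟩ := exists_prime_orderOf_dvd_card' q h
    have hy' : orderOf (y : G) = q := by rw [Subgroup.orderOf_coe]; exact hy
    have hinv : ∀ k ∈ (((P : Subgroup G) : Set G) \ {1}),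
        (y : G) * k * (y : G)⁻¹ ∈ (((P : Subgroup G) : Set G) \ {1}) := by
      intro k hk
      refine ⟨(Subgroup.mem_normalizer_iff.mp y.2 k).mp hk.1, ?_⟩
      intro h1
      apply hk.2
      rw [Set.mem_singleton_iff] at h1 ⊢
      exact conj_eq_one_iff.mp h1
    by_cases hfree : ∀ k ∈ (((P : Subgroup G) : Set G) \ {1}), (y : G) * k * (y : G)⁻¹ ≠ k
    · have := Cfsg.Agent.Lib.Helper52.PG7920.dvd_ncard_of_free_conj q
        (((P : Subgroup G) : Set G) \ {1}) (y : G) (by rw [← hy']; exact pow_orderOf_eq_one _)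
        hinv hfree
      rw [hW] at this
      rcases hq with rfl | rfl <;> omega
    · push Not at hfree
      obtain ⟨k, hk, hkk⟩ := hfree
      have hyk : (y : G) ∈ Subgroup.centralizer ({k} : Set G) := by
        rw [mem_cz]
        exact (mul_inv_eq_iff_eq_mul.mp hkk).symm
      have h1 : q ∣ Nat.card (Subgroup.centralizer ({k} : Set G)) := by
        rw [← hy']
        exact Subgroup.orderOf_dvd_natCard _ hyk
      have h2 := (cz_three_elt hG P k hk.1 (by simpa using hk.2)).2
      have := h1.trans h2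
      rcases hq with rfl | rfl <;> omega
  have hc5 : Nat.Coprime (Nat.card (Subgroup.normalizer ((P : Subgroup G) : Set G))) 5 :=
    ((Nat.Prime.coprime_iff_not_dvd (by norm_num)).mpr
      (hq 5 (by norm_num) (Or.inl rfl))).symm
  have hc11 : Nat.Coprime (Nat.card (Subgroup.normalizer ((P : Subgroup G) : Set G))) 11 :=
    ((Nat.Prime.coprime_iff_not_dvd (by norm_num)).mpr
      (hq 11 (by norm_num) (Or.inr rfl))).symm
  have h144 : Nat.card (Subgroup.normalizer ((P : Subgroup G) : Set G)) ∣ 144 :=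
    (Nat.Coprime.mul_right hc5 hc11).dvd_of_dvd_mul_right hdvd
  have hidx := Subgroup.card_mul_index (Subgroup.normalizer ((P : Subgroup G) : Set G))
  have hn3 : Nat.card (Sylow 3 G) = (Subgroup.normalizer ((P : Subgroup G) : Set G)).index :=
    Sylow.card_eq_index_normalizer P
  rw [hG, ← hn3] at hidx
  have hmod : Nat.card (Sylow 3 G) % 3 = 1 := card_sylow_modEq_one 3 G
  obtain ⟨c, hc⟩ := h9
  rw [hc] at h144 hidx
  have hc16 : c ∣ 16 := by
    have : 9 * c ∣ 9 * 16 := h144
    exact Nat.dvd_of_mul_dvd_mul_left (by norm_num) this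
  have hcle : c ≤ 16 := Nat.le_of_dvd (by norm_num) hc16
  have hc0 : 0 < c := Nat.pos_of_dvd_of_pos hc16 (by norm_num)
  rw [hc]
  interval_cases c <;> first | omega | skip
  -- remaining: c = 1
  exfalso
  have hNP : (P : Subgroup G) = Subgroup.normalizer ((P : Subgroup G) : Set G) :=
    Subgroup.eq_of_le_of_card_ge hPN (by rw [hc, card_sylow3 hG P])
  obtain ⟨x, hx, hx1⟩ := exists_ne_one_sylow3 hG P
  apply hx1
  apply eq_one_of_central_normalizer hGn P (sylow3_comm hG P) x hx
  intro n hn
  rw [← hNP] at hn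
  exact sylow3_comm hG P n hn x hx

/-- nonidentity elements of a Sylow `3`-subgroup have order `3` -/
theorem orderOf_eq_three_of_mem (hG : Nat.card G = 7920) (P : Sylow 3 G) (x : G)
    (hx : x ∈ (P : Subgroup G)) (hx1 : x ≠ 1) : orderOf x = 3 := by
  have h1 : orderOf x ∣ 3 ^ 2 := by
    have := Subgroup.orderOf_dvd_natCard _ hx
    rwa [card_sylow3 hG P] at this
  obtain ⟨j, hj, hjx⟩ := (Nat.dvd_prime_pow Nat.prime_three).mp h1
  interval_cases j
  · exact absurd (orderOf_eq_one_iff.mp (by simpa using hjx)) hx1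
  · simpa using hjx
  · exfalso
    have hcyc : IsCyclic ↥(P : Subgroup G) := by
      apply isCyclic_of_orderOf_eq_card (⟨x, hx⟩ : ↥(P : Subgroup G))
      rw [Subgroup.orderOf_mk, hjx, card_sylow3 hG P]
      norm_num
    have haut := IsCyclic.card_mulAut ↥(P : Subgroup G)
    rw [card_sylow3 hG P] at haut
    have htot : Nat.totient 9 = 6 := by decide
    have hrel := Cfsg.Agent.Lib.Helper24.relIndex_dvd_card_mulAut (P : Subgroup G)
    rw [centralizer_sylow3 hG P, haut, htot] at hrel
    have hmul := Cfsg.Agent.Lib.Helper52.PG7920.relIndex_mul_card_of_le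
      (Subgroup.le_normalizer : (P : Subgroup G) ≤ Subgroup.normalizer ((P : Subgroup G) : Set G))
    rw [card_sylow3 hG P] at hmul
    rcases card_normalizer_sylow3_cases hG P with h | h
    · rw [h] at hmul
      have : (P : Subgroup G).relIndex (Subgroup.normalizer ((P : Subgroup G) : Set G)) = 4 := by
        omega
      rw [this] at hrel
      omega
    · rw [h] at hmul
      have : (P : Subgroup G).relIndex (Subgroup.normalizer ((P : Subgroup G) : Set G)) = 16 := by
        omega
      rw [this] at hrel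
      omega

/-- a Sylow `3`-subgroup has exactly eight elements of order `3` -/
theorem card_order_three_sylow3 (hG : Nat.card G = 7920) (P : Sylow 3 G) :
    Nat.card {y : G // y ∈ (P : Subgroup G) ∧ orderOf y = 3} = 8 := by
  have hset : {y : G | y ∈ (P : Subgroup G) ∧ orderOf y = 3} =
      ((P : Subgroup G) : Set G) \ {1} := by
    ext y
    constructor
    · rintro ⟨hy, hy3⟩
      refine ⟨hy, ?_⟩
      intro h1
      rw [Set.mem_singleton_iff] at h1
      rw [h1, orderOf_one] at hy3
      omega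
    · rintro ⟨hy, hy1⟩
      exact ⟨hy, orderOf_eq_three_of_mem hG P y hy (by simpa using hy1)⟩
  have h1 : Nat.card {y : G // y ∈ (P : Subgroup G) ∧ orderOf y = 3} =
      ({y : G | y ∈ (P : Subgroup G) ∧ orderOf y = 3} : Set G).ncard :=
    Nat.card_coe_set_eq _
  rw [h1, hset, Set.ncard_sdiff_singleton_of_mem (Subgroup.one_mem _)]
  have : ((P : Subgroup G) : Set G).ncard = 9 := by
    rw [← card_sylow3 hG P]
    exact (Nat.card_coe_set_eq _).symm
  rw [this]

/-- **The group part.** If all elements of order `3` are conjugate with centraliser of order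
`18`, the Sylow `3`-normaliser has order `144`. -/
theorem card_normalizer_sylow3 (hG : Nat.card G = 7920)
    (H1 : ∀ x : G, orderOf x = 3 → Nat.card (Subgroup.centralizer ({x} : Set G)) = 18)
    (H2 : ∀ x x' : G, orderOf x = 3 → orderOf x' = 3 → IsConj x x') (P : Sylow 3 G) :
    Nat.card (Subgroup.normalizer ((P : Subgroup G) : Set G)) = 144 := by
  obtain ⟨x, hx, hx1⟩ := exists_ne_one_sylow3 hG P
  have hx3 := orderOf_eq_three_of_mem hG P x hx hx1
  have hPd : (P : Subgroup G) ≤ Subgroup.centralizer ({x} : Set G) ⊓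
      Subgroup.normalizer ((P : Subgroup G) : Set G) :=
    le_inf (sylow3_le_cz hG P x hx) Subgroup.le_normalizer
  have hd9 : 9 ∣ Nat.card ↥(Subgroup.centralizer ({x} : Set G) ⊓
      Subgroup.normalizer ((P : Subgroup G) : Set G)) := by
    have := Subgroup.card_dvd_of_le hPd
    rwa [card_sylow3 hG P] at this
  have hd18 : Nat.card ↥(Subgroup.centralizer ({x} : Set G) ⊓
      Subgroup.normalizer ((P : Subgroup G) : Set G)) ∣ 18 := by
    rw [← H1 x hx3]
    exact Subgroup.card_dvd_of_le inf_le_left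
  have hmemP : ∀ n : ↥(Subgroup.normalizer ((P : Subgroup G) : Set G)),
      (n : G) * x * (n : G)⁻¹ ∈ (P : Subgroup G) ∧ orderOf ((n : G) * x * (n : G)⁻¹) = 3 := by
    intro n
    refine ⟨(Subgroup.mem_normalizer_iff.mp n.2 x).mp hx, ?_⟩
    rw [Cfsg.Agent.Lib.Helper90.orderOf_conj_eq]
    exact hx3
  have hcount : Nat.card ↥(Subgroup.normalizer ((P : Subgroup G) : Set G)) =
      Nat.card {y : G // y ∈ (P : Subgroup G) ∧ orderOf y = 3} *
        Nat.card ↥(Subgroup.centralizer ({x} : Set G) ⊓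
          Subgroup.normalizer ((P : Subgroup G) : Set G)) := by
    apply Cfsg.Agent.S4212.card_eq_mul_of_fiber
      (fun n : ↥(Subgroup.normalizer ((P : Subgroup G) : Set G)) =>
        (⟨(n : G) * x * (n : G)⁻¹, hmemP n⟩ : {y : G // y ∈ (P : Subgroup G) ∧ orderOf y = 3}))
    rintro ⟨y, hyP, hy3⟩
    obtain ⟨g, hg⟩ := isConj_iff.mp (H2 x y hx3 hy3)
    obtain ⟨n0, hn0, hn0x⟩ := Cfsg.Agent.Lib.Helper22.burnside_fusion_abelian P
      (sylow3_comm hG P) x hx g (by rw [hg]; exact hyP)
    rw [hg] at hn0x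
    apply Nat.card_congr
    refine ⟨fun a => ⟨n0⁻¹ * (a.1 : G), ?_, ?_⟩, fun k => ⟨⟨n0 * (k : G), ?_⟩, ?_⟩, ?_, ?_⟩
    · show n0⁻¹ * (a.1 : G) ∈ Subgroup.centralizer ({x} : Set G)
      rw [mem_cz]
      have h1 : (a.1 : G) * x * (a.1 : G)⁻¹ = y := congrArg Subtype.val a.2
      have h2 : x = n0⁻¹ * y * n0 := by rw [← hn0x]; group
      have h3 : x = (a.1 : G)⁻¹ * y * (a.1 : G) := by
        calc x = (a.1 : G)⁻¹ * ((a.1 : G) * x * (a.1 : G)⁻¹) * (a.1 : G) := by group
          _ = (a.1 : G)⁻¹ * y * (a.1 : G) := by rw [h1]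
      calc x * (n0⁻¹ * (a.1 : G)) = (n0⁻¹ * y * n0) * (n0⁻¹ * (a.1 : G)) := by rw [← h2]
        _ = n0⁻¹ * (a.1 : G) * ((a.1 : G)⁻¹ * y * (a.1 : G)) := by group
        _ = n0⁻¹ * (a.1 : G) * x := by rw [← h3]
    · show n0⁻¹ * (a.1 : G) ∈ Subgroup.normalizer ((P : Subgroup G) : Set G)
      exact Subgroup.mul_mem _ (Subgroup.inv_mem _ hn0) a.1.2
    · exact Subgroup.mul_mem _ hn0 k.2.2
    · apply Subtype.ext
      show n0 * (k : G) * x * (n0 * (k : G))⁻¹ = y
      have h1 : x * (k : G) = (k : G) * x := mem_cz.mp k.2.1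
      calc n0 * (k : G) * x * (n0 * (k : G))⁻¹ = n0 * ((k : G) * x) * (k : G)⁻¹ * n0⁻¹ := by group
        _ = n0 * (x * (k : G)) * (k : G)⁻¹ * n0⁻¹ := by rw [h1]
        _ = n0 * x * n0⁻¹ := by group
        _ = y := hn0x
    · intro a
      apply Subtype.ext
      apply Subtype.ext
      show n0 * (n0⁻¹ * (a.1 : G)) = (a.1 : G)
      group
    · intro k
      apply Subtype.ext
      show n0⁻¹ * (n0 * (k : G)) = (k : G)
      group
  rw [card_order_three_sylow3 hG P] at hcount
  rcases card_normalizer_sylow3_cases hG P with h | h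
  · exfalso
    rw [h] at hcount
    obtain ⟨c, hc⟩ := hd9
    rw [hc] at hcount hd18
    have : c ∣ 2 := Nat.dvd_of_mul_dvd_mul_left (by norm_num : 0 < 9) hd18
    have hcle : c ≤ 2 := Nat.le_of_dvd (by norm_num) this
    omega
  · exact h

end M11

end Cfsg.Agent.Lib.Helper44.M11N3
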