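import Mathlib
import Cfsg.Agent.Lib.Helper44.M11N3b

/-!
Simple groups of order `7920` (helper44): `|C(x)|²` divides the number of `y` such that
`x * (y x⁻¹ y⁻¹)` is `11`-singular, for `x` of order `3` (free action of `C(x) × C(x)`).
-/

set_option autoImplicit false

namespace Cfsg.Agent.Lib.Helper44.M11N3

/-- a free action: the order of the group divides the size of the set -/
theorem card_dvd_of_free {Γ α : Type*} [Group Γ] [MulAction Γ α]
    (hfree : ∀ (g : Γ) (a : α), g • a = a → g = 1) : Nat.card Γ ∣ Nat.card α := by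
  have h : ∀ b : α, MulAction.stabilizer Γ b = ⊥ := by
    intro b
    rw [Subgroup.eq_bot_iff_forall]
    intro g hg
    exact hfree g b (MulAction.mem_stabilizer_iff.mp hg)
  rw [Nat.card_congr (MulAction.selfEquivOrbitsQuotientProd h), Nat.card_prod]
  exact dvd_mul_left _ _

variable {G : Type*} [Group G] [Finite G]

/-- in a simple group of order `7920`, only the identity centralises both an element of order
`3` and an `11`-singular element -/
theorem eq_one_of_commute_three_eleven [IsSimpleGroup G] (hG : Nat.card G = 7920) (x z c : G)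
    (hx : orderOf x = 3) (hz : 11 ∣ orderOf z) (hcx : x * c = c * x) (hcz : z * c = c * z) :
    c = 1 := by
  have ho : orderOf z ≠ 0 := (orderOf_pos z).ne'
  obtain ⟨k, hk⟩ := hz
  have hk0 : k ≠ 0 := by
    rintro rfl
    rw [mul_zero] at hk
    exact ho hk
  have hw : orderOf (z ^ k) = 11 := by
    rw [orderOf_pow_of_dvd hk0 ⟨11, by rw [hk, mul_comm]⟩, hk]
    exact Nat.mul_div_cancel _ (Nat.pos_of_ne_zero hk0)
  have hcw : c ∈ Subgroup.centralizer ({z ^ k} : Set G) := by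
    rw [mem_cz]
    exact (Commute.pow_left (show Commute z c from hcz) k).eq
  have h1 : orderOf c ∣ 11 := by
    have := Subgroup.orderOf_dvd_natCard _ hcw
    rwa [cz_eleven hG _ hw] at this
  rcases (Nat.dvd_prime (by norm_num : Nat.Prime 11)).mp h1 with h | h
  · exact orderOf_eq_one_iff.mp h
  · exfalso
    have hxc : x ∈ Subgroup.centralizer ({c} : Set G) := mem_cz.mpr hcx.symm
    have := Subgroup.orderOf_dvd_natCard _ hxc
    rw [cz_eleven hG _ h, hx] at this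
    omega

/-- `C(x) × C(x)` acts freely on `{y | x * (y x⁻¹ y⁻¹) is 11-singular}` by
`(c₁, c₂) • y = c₁ y c₂⁻¹`. -/
theorem card_centralizer_sq_dvd [IsSimpleGroup G] (hG : Nat.card G = 7920) (x : G)
    (hx : orderOf x = 3) :
    Nat.card (Subgroup.centralizer ({x} : Set G)) ^ 2 ∣
      Nat.card {y : G // 11 ∣ orderOf (x * (y * x⁻¹ * y⁻¹))} := by
  have hkey : ∀ (c1 c2 : ↥(Subgroup.centralizer ({x} : Set G))) (y : G),
      x * ((c1 : G) * y * (c2 : G)⁻¹ * x⁻¹ * ((c1 : G) * y * (c2 : G)⁻¹)⁻¹)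
        = (c1 : G) * (x * (y * x⁻¹ * y⁻¹)) * (c1 : G)⁻¹ := by
    intro c1 c2 y
    have h1 : x * (c1 : G) = (c1 : G) * x := mem_cz.mp c1.2
    have h2 : x * (c2 : G) = (c2 : G) * x := mem_cz.mp c2.2
    have h3 : (c2 : G)⁻¹ * x⁻¹ * (c2 : G) = x⁻¹ := by
      have : (c2 : G)⁻¹ * x⁻¹ = x⁻¹ * (c2 : G)⁻¹ := by
        rw [← mul_inv_rev, ← mul_inv_rev, h2]
      rw [this, inv_mul_cancel_right]
    calc x * ((c1 : G) * y * (c2 : G)⁻¹ * x⁻¹ * ((c1 : G) * y * (c2 : G)⁻¹)⁻¹)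
        = x * (c1 : G) * (y * ((c2 : G)⁻¹ * x⁻¹ * (c2 : G)) * y⁻¹) * (c1 : G)⁻¹ := by group
      _ = (c1 : G) * x * (y * x⁻¹ * y⁻¹) * (c1 : G)⁻¹ := by rw [h3, h1]
      _ = (c1 : G) * (x * (y * x⁻¹ * y⁻¹)) * (c1 : G)⁻¹ := by group
  let act : MulAction
      (↥(Subgroup.centralizer ({x} : Set G)) × ↥(Subgroup.centralizer ({x} : Set G)))
      {y : G // 11 ∣ orderOf (x * (y * x⁻¹ * y⁻¹))} :=
    { smul := fun c y => ⟨(c.1 : G) * y.1 * (c.2 : G)⁻¹, by
        rw [hkey, Cfsg.Agent.Lib.Helper90.orderOf_conj_eq]; exact y.2⟩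
      one_smul := fun y => Subtype.ext (by
        show (((1 : ↥(Subgroup.centralizer ({x} : Set G)) ×
          ↥(Subgroup.centralizer ({x} : Set G))).1 : ↥(Subgroup.centralizer ({x} : Set G))) : G)
            * y.1 * (((1 : ↥(Subgroup.centralizer ({x} : Set G)) ×
          ↥(Subgroup.centralizer ({x} : Set G))).2 : ↥(Subgroup.centralizer ({x} : Set G))) : G)⁻¹
            = y.1
        simp)
      mul_smul := fun c d y => Subtype.ext (by
        show (((c * d).1 : ↥(Subgroup.centralizer ({x} : Set G))) : G) * y.1 *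
            (((c * d).2 : ↥(Subgroup.centralizer ({x} : Set G))) : G)⁻¹
          = (c.1 : G) * ((d.1 : G) * y.1 * (d.2 : G)⁻¹) * (c.2 : G)⁻¹
        simp [mul_assoc]) }
  have hsm : ∀ (c : ↥(Subgroup.centralizer ({x} : Set G)) ×
      ↥(Subgroup.centralizer ({x} : Set G)))
      (y : {y : G // 11 ∣ orderOf (x * (y * x⁻¹ * y⁻¹))}),
      ((c • y : {y : G // 11 ∣ orderOf (x * (y * x⁻¹ * y⁻¹))}) : G)
        = (c.1 : G) * y.1 * (c.2 : G)⁻¹ := fun _ _ => rfl
  have hdvd := card_dvd_of_free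
    (Γ := ↥(Subgroup.centralizer ({x} : Set G)) × ↥(Subgroup.centralizer ({x} : Set G)))
    (α := {y : G // 11 ∣ orderOf (x * (y * x⁻¹ * y⁻¹))}) ?_
  · rw [Nat.card_prod, ← sq] at hdvd
    exact hdvd
  · rintro ⟨c1, c2⟩ y hfix
    have h0 : (c1 : G) * y.1 * (c2 : G)⁻¹ = y.1 := by
      have := congrArg Subtype.val hfix
      rwa [hsm] at this
    have hc2 : (c2 : G) = y.1⁻¹ * (c1 : G) * y.1 := by
      have h := mul_inv_eq_iff_eq_mul.mp h0
      rw [mul_assoc, h, inv_mul_cancel_left]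
    have h1 : x * (c1 : G) = (c1 : G) * x := mem_cz.mp c1.2
    have h2 : x * (c2 : G) = (c2 : G) * x := mem_cz.mp c2.2
    have h3 : (y.1 * x⁻¹ * y.1⁻¹) * (c1 : G) = (c1 : G) * (y.1 * x⁻¹ * y.1⁻¹) := by
      rw [hc2] at h2
      have h4 : x⁻¹ * (y.1⁻¹ * (c1 : G) * y.1) = (y.1⁻¹ * (c1 : G) * y.1) * x⁻¹ := by
        calc x⁻¹ * (y.1⁻¹ * (c1 : G) * y.1)
            = x⁻¹ * ((y.1⁻¹ * (c1 : G) * y.1) * x) * x⁻¹ := by group
          _ = x⁻¹ * (x * (y.1⁻¹ * (c1 : G) * y.1)) * x⁻¹ := by rw [h2]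
          _ = (y.1⁻¹ * (c1 : G) * y.1) * x⁻¹ := by group
      calc (y.1 * x⁻¹ * y.1⁻¹) * (c1 : G)
          = y.1 * (x⁻¹ * (y.1⁻¹ * (c1 : G) * y.1)) * y.1⁻¹ := by group
        _ = y.1 * ((y.1⁻¹ * (c1 : G) * y.1) * x⁻¹) * y.1⁻¹ := by rw [h4]
        _ = (c1 : G) * (y.1 * x⁻¹ * y.1⁻¹) := by group
    have hz : (x * (y.1 * x⁻¹ * y.1⁻¹)) * (c1 : G) = (c1 : G) * (x * (y.1 * x⁻¹ * y.1⁻¹)) := by
      rw [mul_assoc, h3, ← mul_assoc, h1, mul_assoc]
    have hc1 : (c1 : G) = 1 := eq_one_of_commute_three_eleven hG x _ (c1 : G) hx y.2 h1 hz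
    have hc2' : (c2 : G) = 1 := by rw [hc2, hc1]; group
    exact Prod.ext (Subtype.ext hc1) (Subtype.ext hc2')

end Cfsg.Agent.Lib.Helper44.M11N3
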