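import Mathlib
import Cfsg.Agent.Lib.Helper44.SiegelOmega

set_option autoImplicit false

namespace Cfsg.Agent.Lib.Helper44

open Matrix Module Cfsg.Agent.Lib.Helper14

section notmax

variable {n : ℕ} {F : Type*} [Field F] [Fintype F]

/-- S5698: the stabiliser in `Ω` of a pair of complementary totally singular subspaces of odd
dimension `k` is not maximal: it fixes each of the two subspaces. -/
theorem not_max_ts_pair (Q : QuadraticForm F (Fin n → F))
    (hQ : (QuadraticMap.polarBilin Q).Nondegenerate) (hn : 5 ≤ n) (k : ℕ) (hk : 2 * k = n)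
    (hko : Odd k) (D : Fin 2 → Submodule F (Fin n → F)) (hD : Cfsg.Geo.IsMDecomposition k D)
    (hts : ∀ i, ∀ w ∈ D i, Q w = 0) :
    ∃ K : Subgroup (Matrix.GeneralLinearGroup (Fin n) F),
      Cfsg.Geo.decompositionStabilizer D ⊓ Cfsg.Geo.omegaGL ⇑Q < K ∧
        K < Cfsg.Geo.omegaGL ⇑Q := by
  have hk2 : 2 ≤ k := by omega
  have hdim : finrank F (Fin n → F) = 2 * k := by
    rw [Module.finrank_fintype_fun_eq_card, Fintype.card_fin, hk]
  have hdisj : D 0 ⊓ D 1 = ⊥ :=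
    disjoint_iff.mp (hD.indep.pairwiseDisjoint (by decide : (0 : Fin 2) ≠ 1))
  have hsup : D 0 ⊔ D 1 = ⊤ := by
    rw [← hD.iSup_eq_top]
    apply le_antisymm
    · exact sup_le (le_iSup D 0) (le_iSup D 1)
    · apply iSup_le
      intro i
      fin_cases i
      · exact le_sup_left
      · exact le_sup_right
  have hdisj' : D 1 ⊓ D 0 = ⊥ := by rw [inf_comm]; exact hdisj
  have hsup' : D 1 ⊔ D 0 = ⊤ := by rw [sup_comm]; exact hsup
  have hMTS : ∀ i, IsMTS Q k (D i) := fun i => ⟨hD.finrank_eq i, hts i⟩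
  have hne01 : D 0 ≠ D 1 := by
    intro h
    rw [← h, inf_idem] at hdisj
    have := hD.finrank_eq 0
    rw [hdisj, finrank_bot] at this
    omega
  have hfin2 : ∀ i : Fin 2, i ≠ 0 → i = 1 := by decide
  have hfin2' : ∀ i : Fin 2, i ≠ 1 → i = 0 := by decide
  refine ⟨Cfsg.Geo.subspaceStabilizer (D 0) ⊓ Cfsg.Geo.omegaGL ⇑Q, ?_, ?_⟩
  · rw [SetLike.lt_iff_le_and_exists]
    constructor
    · intro g hg
      obtain ⟨hgD, hgΩ⟩ := Subgroup.mem_inf.mp hg
      refine Subgroup.mem_inf.mpr ⟨?_, hgΩ⟩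
      obtain ⟨h, hhΩ, rfl⟩ := exists_of_mem_omegaGL hgΩ
      obtain ⟨σ, hσ⟩ := hgD
      have h0 : (D 0).map (Matrix.mulVecLin
          ((h : Matrix.GeneralLinearGroup (Fin n) F) : Matrix (Fin n) (Fin n) F)) = D (σ 0) := by
        have := hσ 0
        rwa [Matrix.toLin'_apply'] at this
      have hσ0 : σ 0 = 0 := by
        by_contra hne
        have h1 : σ 0 = 1 := hfin2 _ hne
        have hpar := even_of_mem_omega_mts hQ hdim (hMTS 0) hhΩ
        rw [h0, h1, hdisj, finrank_bot, Nat.sub_zero] at hpar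
        exact (Nat.not_even_iff_odd.mpr hko) hpar
      rw [hσ0] at h0
      apply mem_subspaceStabilizer_of_isom
      intro x hx
      rw [← h0]
      exact ⟨x, hx, rfl⟩
    · obtain ⟨g, hgΩ, hfix, x, hx, hgx⟩ := exists_siegel_mover Q hQ hn (D 0) (D 1) (hts 0)
        hdisj hsup (by rw [hD.finrank_eq]; exact hk2)
      have hgD0 : ∀ y ∈ D 0, ((g : Matrix.GeneralLinearGroup (Fin n) F) :
          Matrix (Fin n) (Fin n) F) *ᵥ y ∈ D 0 := fun y hy => by rw [hfix y hy]; exact hy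
      refine ⟨(g : Matrix.GeneralLinearGroup (Fin n) F), Subgroup.mem_inf.mpr
        ⟨mem_subspaceStabilizer_of_isom g (D 0) hgD0, (coe_mem_omegaGL_iff g).mpr hgΩ⟩, ?_⟩
      intro hmem
      obtain ⟨⟨σ, hσ⟩, -⟩ := Subgroup.mem_inf.mp hmem
      have h0 : (D 0).map (Matrix.mulVecLin
          ((g : Matrix.GeneralLinearGroup (Fin n) F) : Matrix (Fin n) (Fin n) F)) = D 0 :=
        map_eq_of_forall_mem ⇑Q g (D 0) hgD0
      have hσ0 : σ 0 = 0 := by
        by_contra hne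
        have h1 : σ 0 = 1 := hfin2 _ hne
        have := hσ 0
        rw [Matrix.toLin'_apply', h0, h1] at this
        exact hne01 this
      have hσ1 : σ 1 = 1 := by
        by_contra hne
        have h1 : σ 1 = 0 := hfin2' _ hne
        have h2 : σ 1 = σ 0 := by rw [h1, hσ0]
        exact absurd (σ.injective h2) (by decide)
      have h1 := hσ 1
      rw [Matrix.toLin'_apply', hσ1] at h1
      apply hgx
      rw [← h1]
      exact ⟨x, hx, rfl⟩
  · rw [SetLike.lt_iff_le_and_exists]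
    refine ⟨inf_le_right, ?_⟩
    obtain ⟨g, hgΩ, hfix, x, hx, hgx⟩ := exists_siegel_mover Q hQ hn (D 1) (D 0) (hts 1)
      hdisj' hsup' (by rw [hD.finrank_eq]; exact hk2)
    refine ⟨(g : Matrix.GeneralLinearGroup (Fin n) F), (coe_mem_omegaGL_iff g).mpr hgΩ, ?_⟩
    intro hmem
    obtain ⟨hst, -⟩ := Subgroup.mem_inf.mp hmem
    exact hgx ((hst x).mp hx)

/-- S5686: the stabiliser in `Ω` of a totally singular subspace of dimension `n/2 - 1` is not
maximal: it fixes a totally singular subspace of dimension `n/2` containing it. -/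
theorem not_max_ts_submax (Q : QuadraticForm F (Fin n → F))
    (hQ : (QuadraticMap.polarBilin Q).Nondegenerate) (hn : 5 ≤ n)
    (U₀ : Submodule F (Fin n → F)) (hU₀ : ∀ x ∈ U₀, Q x = 0) (hU₀dim : 2 * finrank F U₀ = n)
    (W : Submodule F (Fin n → F)) (hW : ∀ w ∈ W, Q w = 0)
    (hdim : 2 * (finrank F W + 1) = n) :
    ∃ K : Subgroup (Matrix.GeneralLinearGroup (Fin n) F),
      Cfsg.Geo.subspaceStabilizer W ⊓ Cfsg.Geo.omegaGL ⇑Q < K ∧ K < Cfsg.Geo.omegaGL ⇑Q := by
  obtain ⟨m, hm⟩ : ∃ m, m = finrank F W + 1 := ⟨_, rfl⟩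
  have hnm : n = 2 * m := by omega
  have hfin : finrank F (Fin n → F) = 2 * m := by
    rw [Module.finrank_fintype_fun_eq_card, Fintype.card_fin, hnm]
  have hU₀MTS : IsMTS Q m U₀ := ⟨by omega, hU₀⟩
  -- a non-singular vector
  obtain ⟨z, hz⟩ : ∃ z, Q z ≠ 0 := by
    have hx : (fun _ : Fin n => (1 : F)) ≠ 0 := by
      intro h0
      have := congrFun h0 ⟨0, by omega⟩
      simp at this
    exact exists_quad_ne_zero_of_ne_bot Q hQ hx
  have hW₀dim := hU₀MTS.finrank_inf_map_refl hQ hfin hz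
  obtain ⟨W₀, hW₀def⟩ : ∃ W₀ : Submodule F (Fin n → F),
      W₀ = U₀ ⊓ U₀.map (Matrix.mulVecLin (Cfsg.reflectionMatrix ⇑Q z)) := ⟨_, rfl⟩
  rw [← hW₀def] at hW₀dim
  have hW₀W : finrank F W₀ = finrank F W := by omega
  have hW₀U₀ : W₀ ≤ U₀ := by rw [hW₀def]; exact inf_le_left
  obtain ⟨g₀, hg₀⟩ := exists_isom_map_of_equiv Q hQ W₀ W (LinearEquiv.ofFinrankEq W₀ W hW₀W)
    (fun x => by rw [hW _ (Subtype.mem _), hU₀ _ (hW₀U₀ x.2)])
  obtain ⟨U, hUdef⟩ : ∃ U : Submodule F (Fin n → F), U = U₀.map (Matrix.mulVecLin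
      ((g₀ : Matrix.GeneralLinearGroup (Fin n) F) : Matrix (Fin n) (Fin n) F)) := ⟨_, rfl⟩
  have hU : IsMTS Q m U := by rw [hUdef]; exact hU₀MTS.map_isom g₀
  have hWU : W ≤ U := by rw [hUdef, ← hg₀]; exact Submodule.map_mono hW₀U₀
  have hpolU : ∀ x ∈ U, ∀ y ∈ U, QuadraticMap.polar ⇑Q x y = 0 :=
    fun x hx y hy => hU.polar_eq_zero hx hy
  have hWne : W ≠ ⊥ := by
    intro h
    rw [h, finrank_bot] at hdim
    omega
  obtain ⟨w₁, hw₁W, hw₁0⟩ := Submodule.exists_mem_ne_zero_of_ne_bot hWne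
  have hw₁U := hWU hw₁W
  obtain ⟨f, -, hf, hw₁f⟩ := Cfsg.Agent.Lib.Helper99.exists_hyp_partner Q ⊤
    (fun u _ hu => hQ.1 u (fun v => hu v Submodule.mem_top)) (Submodule.mem_top (x := w₁)) hw₁0
    (hW w₁ hw₁W)
  have hfw₁ : QuadraticMap.polar ⇑Q f w₁ = 1 := by
    rw [QuadraticMap.polar_comm]; exact hw₁f
  have hlt : W < U := by
    apply lt_of_le_of_ne hWU
    intro h
    have := hU.1
    rw [← h] at this
    omega
  obtain ⟨v₀, hv₀U, hv₀W⟩ := SetLike.exists_of_lt hlt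
  obtain ⟨v, hvdef⟩ : ∃ v, v = v₀ - QuadraticMap.polar ⇑Q f v₀ • w₁ := ⟨_, rfl⟩
  have hvU : v ∈ U := by rw [hvdef]; exact U.sub_mem hv₀U (U.smul_mem _ hw₁U)
  have hvW : v ∉ W := by
    intro h
    apply hv₀W
    have e : v₀ = v + QuadraticMap.polar ⇑Q f v₀ • w₁ := by rw [hvdef]; abel
    rw [e]
    exact W.add_mem h (W.smul_mem _ hw₁W)
  have hfv : QuadraticMap.polar ⇑Q f v = 0 := by
    rw [hvdef, QuadraticMap.polar_sub_right, QuadraticMap.polar_smul_right, hfw₁, smul_eq_mul,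
      mul_one, sub_self]
  have hQv : Q v = 0 := hU.2 v hvU
  refine ⟨Cfsg.Geo.subspaceStabilizer U ⊓ Cfsg.Geo.omegaGL ⇑Q, ?_, ?_⟩
  · rw [SetLike.lt_iff_le_and_exists]
    constructor
    · intro g hg
      obtain ⟨hgW, hgΩ⟩ := Subgroup.mem_inf.mp hg
      refine Subgroup.mem_inf.mpr ⟨?_, hgΩ⟩
      obtain ⟨h, hhΩ, rfl⟩ := exists_of_mem_omegaGL hgΩ
      have hmapW := map_eq_of_mem_subspaceStabilizer _ W hgW
      have hpar := even_of_mem_omega_mts hQ hfin hU hhΩ
      obtain ⟨U', hU'⟩ : ∃ U' : Submodule F (Fin n → F), U' = U.map (Matrix.mulVecLin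
          ((h : Matrix.GeneralLinearGroup (Fin n) F) : Matrix (Fin n) (Fin n) F)) := ⟨_, rfl⟩
      rw [← hU'] at hpar
      have hU'MTS : IsMTS Q m U' := by rw [hU']; exact hU.map_isom h
      have hWle : W ≤ U ⊓ U' := by
        refine le_inf hWU ?_
        rw [hU', ← hmapW]
        exact Submodule.map_mono hWU
      have h1 := Submodule.finrank_mono hWle
      have h2 : finrank F ↥(U ⊓ U') ≤ m := hU.inf_finrank_le
      have h3 : finrank F ↥(U ⊓ U') = m := by
        by_contra hne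
        have e1 : finrank F ↥(U ⊓ U') = m - 1 := by omega
        rw [e1] at hpar
        have e2 : m - (m - 1) = 1 := by omega
        rw [e2] at hpar
        exact absurd hpar (by decide)
      have h4 : U ⊓ U' = U := Submodule.eq_of_le_of_finrank_eq inf_le_left (by rw [h3, hU.1])
      have h5 : U ≤ U' := by rw [← h4]; exact inf_le_right
      have h6 : U = U' := Submodule.eq_of_le_of_finrank_eq h5 (by rw [hU.1, hU'MTS.1])
      apply mem_subspaceStabilizer_of_isom
      intro x hx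
      have : ((h : Matrix.GeneralLinearGroup (Fin n) F) : Matrix (Fin n) (Fin n) F) *ᵥ x ∈ U' := by
        rw [hU']
        exact ⟨x, hx, rfl⟩
      rw [h6]
      exact this
    · obtain ⟨g, hgΩ, hg⟩ := exists_siegel_mem_omega Q hQ hn f v hf hQv hfv 1
      have hgU : ∀ x ∈ U, ((g : Matrix.GeneralLinearGroup (Fin n) F) :
          Matrix (Fin n) (Fin n) F) *ᵥ x ∈ U := by
        intro x hx
        rw [hg, siegelMatrix_mulVec, hpolU v hvU x hx, mul_zero, zero_smul, sub_zero]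
        exact U.add_mem hx (U.smul_mem _ hvU)
      refine ⟨(g : Matrix.GeneralLinearGroup (Fin n) F), Subgroup.mem_inf.mpr
        ⟨mem_subspaceStabilizer_of_isom g U hgU, (coe_mem_omegaGL_iff g).mpr hgΩ⟩, ?_⟩
      intro hmem
      obtain ⟨hst, -⟩ := Subgroup.mem_inf.mp hmem
      have h1 : ((g : Matrix.GeneralLinearGroup (Fin n) F) : Matrix (Fin n) (Fin n) F) *ᵥ w₁ ∈ W :=
        (hst w₁).mp hw₁W
      rw [hg, siegelMatrix_mulVec, hpolU v hvU w₁ hw₁U, mul_zero, zero_smul, sub_zero, one_mul,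
        hfw₁, one_smul] at h1
      apply hvW
      have e : v = (w₁ + v) - w₁ := by abel
      rw [e]
      exact W.sub_mem h1 hw₁W
  · rw [SetLike.lt_iff_le_and_exists]
    refine ⟨inf_le_right, ?_⟩
    obtain ⟨H, hH⟩ : ∃ H : Submodule F (Fin n → F), H = (F ∙ w₁) ⊔ (F ∙ f) := ⟨_, rfl⟩
    have hw₁H : w₁ ∈ H := by
      rw [hH]; exact Submodule.mem_sup_left (Submodule.mem_span_singleton_self w₁)
    have hfH : f ∈ H := by
      rw [hH]; exact Submodule.mem_sup_right (Submodule.mem_span_singleton_self f)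
    have hww : QuadraticMap.polar ⇑Q w₁ w₁ = 0 := by rw [polar_self_eq, hW w₁ hw₁W, mul_zero]
    have hff : QuadraticMap.polar ⇑Q f f = 0 := by rw [polar_self_eq, hf, mul_zero]
    have hHrad : H ⊓ orth Q H = ⊥ := by
      rw [eq_bot_iff]
      intro x hx
      obtain ⟨hxH, hxO⟩ := Submodule.mem_inf.mp hx
      have hperp := (mem_orth_iff Q H x).mp hxO
      rw [hH] at hxH
      obtain ⟨a, ha, b, hb, rfl⟩ := Submodule.mem_sup.mp hxH
      obtain ⟨α, rfl⟩ := Submodule.mem_span_singleton.mp ha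
      obtain ⟨β, rfl⟩ := Submodule.mem_span_singleton.mp hb
      have e1 := hperp w₁ hw₁H
      rw [QuadraticMap.polar_add_right, QuadraticMap.polar_smul_right,
        QuadraticMap.polar_smul_right, hww, hw₁f, smul_eq_mul, smul_eq_mul, mul_zero, zero_add,
        mul_one] at e1
      have e2 := hperp f hfH
      rw [QuadraticMap.polar_add_right, QuadraticMap.polar_smul_right,
        QuadraticMap.polar_smul_right, hff, hfw₁, smul_eq_mul, smul_eq_mul, mul_zero, add_zero,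
        mul_one] at e2
      rw [e1, e2, zero_smul, zero_smul, add_zero]
      exact Submodule.zero_mem _
    have hMnd : Cfsg.Agent.Lib.Helper99.QNondegOn Q (orth Q H) := by
      intro u hu huv
      have hu2 : u ∈ orth Q (orth Q H) :=
        (mem_orth_iff Q (orth Q H) u).mpr fun y hy => by
          rw [QuadraticMap.polar_comm]
          exact huv y hy
      rw [orth_orth Q hQ] at hu2
      have : u ∈ H ⊓ orth Q H := Submodule.mem_inf.mpr ⟨hu2, hu⟩
      rw [hHrad] at this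
      exact (Submodule.mem_bot F).mp this
    have hvM : v ∈ orth Q H := by
      refine (mem_orth_iff Q H v).mpr fun y hy => ?_
      rw [hH] at hy
      obtain ⟨a, ha, b, hb, rfl⟩ := Submodule.mem_sup.mp hy
      obtain ⟨α, rfl⟩ := Submodule.mem_span_singleton.mp ha
      obtain ⟨β, rfl⟩ := Submodule.mem_span_singleton.mp hb
      rw [QuadraticMap.polar_add_left, QuadraticMap.polar_smul_left,
        QuadraticMap.polar_smul_left, hpolU w₁ hw₁U v hvU, hfv]
      simp
    have hv0 : v ≠ 0 := fun h => hvW (h ▸ W.zero_mem)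
    obtain ⟨v₃, hv₃M, hQv₃, hvv₃⟩ := Cfsg.Agent.Lib.Helper99.exists_hyp_partner Q (orth Q H)
      hMnd hvM hv0 hQv
    have hv₃perp := (mem_orth_iff Q H v₃).mp hv₃M
    have hw₁v₃ : QuadraticMap.polar ⇑Q w₁ v₃ = 0 := hv₃perp w₁ hw₁H
    have hfv₃ : QuadraticMap.polar ⇑Q f v₃ = 0 := hv₃perp f hfH
    have hv₃U : v₃ ∉ U := by
      intro h
      have := hpolU v hvU v₃ h
      rw [hvv₃] at this
      exact one_ne_zero this
    obtain ⟨g, hgΩ, hg⟩ := exists_siegel_mem_omega Q hQ hn f v₃ hf hQv₃ hfv₃ 1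
    refine ⟨(g : Matrix.GeneralLinearGroup (Fin n) F), (coe_mem_omegaGL_iff g).mpr hgΩ, ?_⟩
    intro hmem
    obtain ⟨hst, -⟩ := Subgroup.mem_inf.mp hmem
    have h1 : ((g : Matrix.GeneralLinearGroup (Fin n) F) : Matrix (Fin n) (Fin n) F) *ᵥ w₁ ∈ U :=
      (hst w₁).mp hw₁U
    rw [hg, siegelMatrix_mulVec, one_mul, one_mul, hfw₁, one_smul,
      QuadraticMap.polar_comm (⇑Q) v₃ w₁, hw₁v₃, zero_smul, sub_zero] at h1
    apply hv₃U
    have e : v₃ = (w₁ + v₃) - w₁ := by abel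
    rw [e]
    exact U.sub_mem h1 hw₁U

end notmax

end Cfsg.Agent.Lib.Helper44
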