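import Mathlib
import Cfsg.Prelude.Def_SporadicB
import Cfsg.Prelude.Def_FischerSpaces
import Cfsg.Agent.Lib.Helper44.WittOmega
import Cfsg.Agent.Lib.Helper44.ThreeTransp
import Cfsg.Agent.Lib.Helper14.Spinor2

set_option autoImplicit false

namespace Cfsg.Agent.Lib.Helper44

open Matrix Module Cfsg.Agent.Lib.Helper14

section orthpair

variable {F V : Type*} [Field F] [Fintype F] [AddCommGroup V] [Module F V] [FiniteDimensional F V]

omit [Fintype F] in
/-- Two vectors, one of them non-singular, lie in a non-degenerate subspace of dimension at most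
three. -/
theorem exists_nondeg_of_pair (h2 : (2 : F) ≠ 0) (Q : QuadraticForm F V)
    (hQ : (QuadraticMap.polarBilin Q).Nondegenerate) (a b : V) (ha : Q a ≠ 0) :
    ∃ U : Submodule F V, a ∈ U ∧ b ∈ U ∧ finrank F U ≤ 3 ∧ U ⊓ orth Q U = ⊥ := by
  have haa : QuadraticMap.polar ⇑Q a a ≠ 0 := by
    rw [polar_self_eq]
    exact mul_ne_zero h2 ha
  obtain ⟨W, hWdef⟩ : ∃ W : Submodule F V, W = (F ∙ a) ⊔ (F ∙ b) := ⟨_, rfl⟩
  have haW : a ∈ W := by
    rw [hWdef]; exact Submodule.mem_sup_left (Submodule.mem_span_singleton_self a)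
  have hbW : b ∈ W := by
    rw [hWdef]; exact Submodule.mem_sup_right (Submodule.mem_span_singleton_self b)
  have hW2 : finrank F W ≤ 2 := by
    rw [hWdef]
    have h1 := Submodule.finrank_add_le_finrank_add_finrank (F ∙ a) (F ∙ b)
    have h3 := finrank_span_singleton_le_one (F := F) a
    have h4 := finrank_span_singleton_le_one (F := F) b
    omega
  have hWmem : ∀ w ∈ W, ∃ α β : F, w = α • a + β • b := by
    intro w hw
    rw [hWdef] at hw
    obtain ⟨x, hx, y, hy, rfl⟩ := Submodule.mem_sup.mp hw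
    obtain ⟨α, rfl⟩ := Submodule.mem_span_singleton.mp hx
    obtain ⟨β, rfl⟩ := Submodule.mem_span_singleton.mp hy
    exact ⟨α, β, rfl⟩
  by_cases hrad : W ⊓ orth Q W = ⊥
  · exact ⟨W, haW, hbW, by omega, hrad⟩
  obtain ⟨s, hs, hs0⟩ := Submodule.exists_mem_ne_zero_of_ne_bot hrad
  obtain ⟨hsW, hsO⟩ := Submodule.mem_inf.mp hs
  have hsperp : ∀ y ∈ W, QuadraticMap.polar ⇑Q y s = 0 := (mem_orth_iff Q W s).mp hsO
  obtain ⟨f, hf⟩ := exists_polar_ne_zero Q hQ hs0
  refine ⟨W ⊔ (F ∙ f), Submodule.mem_sup_left haW, Submodule.mem_sup_left hbW, ?_, ?_⟩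
  · have h1 := Submodule.finrank_add_le_finrank_add_finrank W (F ∙ f)
    have h3 := finrank_span_singleton_le_one (F := F) f
    omega
  · rw [eq_bot_iff]
    intro u hu
    obtain ⟨huU, huO⟩ := Submodule.mem_inf.mp hu
    have huperp : ∀ y ∈ W ⊔ (F ∙ f), QuadraticMap.polar ⇑Q y u = 0 :=
      (mem_orth_iff Q _ u).mp huO
    obtain ⟨w, hw, y, hy, rfl⟩ := Submodule.mem_sup.mp huU
    obtain ⟨γ, rfl⟩ := Submodule.mem_span_singleton.mp hy
    -- γ = 0
    have h1 := huperp s (Submodule.mem_sup_left hsW)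
    rw [QuadraticMap.polar_add_right, QuadraticMap.polar_smul_right, QuadraticMap.polar_comm,
      hsperp w hw, zero_add, smul_eq_mul] at h1
    have hγ : γ = 0 := by
      rcases mul_eq_zero.mp h1 with h | h
      · exact h
      · exact absurd h hf
    subst hγ
    rw [zero_smul, add_zero] at huperp ⊢
    -- now w ∈ rad W, proportional to s
    obtain ⟨α, β, hsab⟩ := hWmem s hsW
    obtain ⟨α', β', hwab⟩ := hWmem w hw
    have e1 : α * QuadraticMap.polar ⇑Q a a + β * QuadraticMap.polar ⇑Q a b = 0 := by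
      have := hsperp a haW
      rw [hsab, QuadraticMap.polar_add_right, QuadraticMap.polar_smul_right,
        QuadraticMap.polar_smul_right, smul_eq_mul, smul_eq_mul] at this
      exact this
    have e2 : α' * QuadraticMap.polar ⇑Q a a + β' * QuadraticMap.polar ⇑Q a b = 0 := by
      have := huperp a (Submodule.mem_sup_left haW)
      rw [hwab, QuadraticMap.polar_add_right, QuadraticMap.polar_smul_right,
        QuadraticMap.polar_smul_right, smul_eq_mul, smul_eq_mul] at this
      exact this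
    have hβ : β ≠ 0 := by
      intro hβ0
      rw [hβ0, zero_mul, add_zero] at e1
      have hα : α = 0 := by
        rcases mul_eq_zero.mp e1 with h | h
        · exact h
        · exact absurd h haa
      apply hs0
      rw [hsab, hα, hβ0, zero_smul, zero_smul, add_zero]
    have e3 : α' = β' / β * α := by
      have : (α' - β' / β * α) * QuadraticMap.polar ⇑Q a a = 0 := by
        field_simp
        linear_combination β * e2 - β' * e1
      rcases mul_eq_zero.mp this with h | h
      · exact sub_eq_zero.mp h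
      · exact absurd h haa
    have hws : w = (β' / β) • s := by
      rw [hwab, hsab, e3, smul_add, smul_smul, smul_smul]
      congr 2
      field_simp
    have h4 := huperp f (Submodule.mem_sup_right (Submodule.mem_span_singleton_self f))
    rw [hws, QuadraticMap.polar_smul_right, QuadraticMap.polar_comm, smul_eq_mul] at h4
    have ht : β' / β = 0 := by
      rcases mul_eq_zero.mp h4 with h | h
      · exact h
      · exact absurd h hf
    rw [hws, ht, zero_smul]
    exact Submodule.zero_mem _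

/-- In dimension at least five, every value is represented on the orthogonal complement of two
vectors one of which is non-singular. -/
theorem exists_orth_pair_repr (h2 : (2 : F) ≠ 0) (Q : QuadraticForm F V)
    (hQ : (QuadraticMap.polarBilin Q).Nondegenerate) (hn : 5 ≤ finrank F V) (a b : V)
    (ha : Q a ≠ 0) (d : F) :
    ∃ e, Q e = d ∧ QuadraticMap.polar ⇑Q a e = 0 ∧ QuadraticMap.polar ⇑Q b e = 0 := by
  obtain ⟨U, haU, hbU, hU3, hUrad⟩ := exists_nondeg_of_pair h2 Q hQ a b ha
  have hX2 : 2 ≤ finrank F (orth Q U) := by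
    rw [finrank_orth Q hQ U]
    omega
  have hXnd : Cfsg.Agent.Lib.Helper99.QNondegOn Q (orth Q U) := by
    intro u hu huv
    have hu2 : u ∈ orth Q (orth Q U) :=
      (mem_orth_iff Q (orth Q U) u).mpr fun y hy => by
        rw [QuadraticMap.polar_comm]
        exact huv y hy
    rw [orth_orth Q hQ] at hu2
    have : u ∈ U ⊓ orth Q U := Submodule.mem_inf.mpr ⟨hu2, hu⟩
    rw [hUrad] at this
    exact (Submodule.mem_bot F).mp this
  obtain ⟨e, he, hQe⟩ := Cfsg.Agent.Lib.Helper99.exists_repr_of_nondeg Q (orth Q U) hXnd hX2 d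
  exact ⟨e, hQe, (mem_orth_iff Q U e).mp he a haU, (mem_orth_iff Q U e).mp he b hbU⟩

end orthpair

section genrefl

variable {ι : Type} [Fintype ι] [DecidableEq ι] {F : Type*} [Field F]

theorem reflElt_mem_reflectionSubgroup (Q : QuadraticForm F (ι → F))
    (hQ : (QuadraticMap.polarBilin Q).Nondegenerate) (c : F) (v : ι → F) (hv : Q v ≠ 0)
    (hvc : Q v = c) : reflElt Q hQ v hv ∈ Cfsg.reflectionSubgroup (⇑Q) c :=
  Subgroup.subset_closure ⟨v, hvc, reflElt_coe Q hQ v hv⟩

theorem reflElt_neg (Q : QuadraticForm F (ι → F))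
    (hQ : (QuadraticMap.polarBilin Q).Nondegenerate) (v : ι → F) (hv : Q v ≠ 0)
    (hv' : Q (-v) ≠ 0) : reflElt Q hQ (-v) hv' = reflElt Q hQ v hv := by
  apply isom_ext
  rw [reflElt_coe, reflElt_coe, Matrix.ext_iff_mulVec]
  intro x
  rw [reflectionMatrix_mulVec, reflectionMatrix_mulVec, QuadraticMap.map_neg,
    QuadraticMap.polar_neg_left, smul_neg, mul_neg, neg_smul, neg_neg]

theorem mem_reflectionsOfNorm_iff (Q : QuadraticForm F (ι → F))
    (hQ : (QuadraticMap.polarBilin Q).Nondegenerate) {c : F} (hc : c ≠ 0)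
    (g : ↥(Cfsg.isometryGroup F ⇑Q)) :
    g ∈ Cfsg.reflectionsOfNorm (⇑Q) c ↔ ∃ (v : ι → F) (hv : Q v ≠ 0), Q v = c ∧
      g = reflElt Q hQ v hv := by
  constructor
  · rintro ⟨v, hv, hg⟩
    exact ⟨v, by rw [hv]; exact hc, hv, isom_ext hg⟩
  · rintro ⟨v, hv0, hv, rfl⟩
    exact ⟨v, hv, reflElt_coe Q hQ v hv0⟩

theorem reflectionSubgroup_normal (Q : QuadraticForm F (ι → F))
    (hQ : (QuadraticMap.polarBilin Q).Nondegenerate) {c : F} (hc : c ≠ 0) :
    (Cfsg.reflectionSubgroup (⇑Q) c).Normal := by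
  have h : Cfsg.reflectionSubgroup (⇑Q) c =
      Subgroup.normalClosure (Cfsg.reflectionsOfNorm (⇑Q) c) := by
    apply le_antisymm
    · exact Subgroup.closure_le_normalClosure
    · unfold Subgroup.normalClosure Cfsg.reflectionSubgroup
      apply Subgroup.closure_mono
      intro g hg
      obtain ⟨g₀, hg₀, hconj⟩ := Group.mem_conjugatesOfSet_iff.mp hg
      obtain ⟨k, rfl⟩ := isConj_iff.mp hconj
      obtain ⟨v, hv0, hv, rfl⟩ := (mem_reflectionsOfNorm_iff Q hQ hc g₀).mp hg₀
      rw [conj_reflElt]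
      exact ⟨_, by rw [isom_preserves k v]; exact hv, reflElt_coe _ _ _ _⟩
  rw [h]
  exact Subgroup.normalClosure_normal

end genrefl

section f3

variable {ι : Type} [Fintype ι] [DecidableEq ι]

theorem zmod3_two : (2 : ZMod 3) = -1 := by decide

theorem zmod3_two_ne : (2 : ZMod 3) ≠ 0 := by decide

theorem zmod3_mul_self {c : ZMod 3} (hc : c ≠ 0) : c * c = 1 := by
  revert c; decide

theorem zmod3_inv {c : ZMod 3} (hc : c ≠ 0) : c⁻¹ = c :=
  inv_eq_of_mul_eq_one_left (zmod3_mul_self hc)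

theorem zmod3_eq_or {c x : ZMod 3} (hc : c ≠ 0) (hx : x ≠ 0) : x = c ∨ x = -c := by
  revert c x; decide

omit [Fintype ι] [DecidableEq ι] in
theorem quad_sub_of_orth (Q : QuadraticForm (ZMod 3) (ι → ZMod 3)) {a b : ι → ZMod 3}
    (hab : Q a = Q b) (hp : QuadraticMap.polar ⇑Q a b = 0) : Q (a - b) = -Q a := by
  have h := quad_sub_smul Q a b 1
  rw [one_smul] at h
  rw [h, ← hab, hp]
  have h3 : (3 : ZMod 3) = 0 := by decide
  linear_combination (Q a) * h3

theorem refl_sub_mulVec (Q : QuadraticForm (ZMod 3) (ι → ZMod 3)) {a b : ι → ZMod 3}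
    (ha : Q a ≠ 0) (hab : Q a = Q b) (hp : QuadraticMap.polar ⇑Q a b = 0) :
    Cfsg.reflectionMatrix ⇑Q (a - b) *ᵥ a = b := by
  rw [reflectionMatrix_mulVec, quad_sub_of_orth Q hab hp, QuadraticMap.polar_sub_left,
    polar_self_eq, QuadraticMap.polar_comm (⇑Q) b a, hp, sub_zero]
  have h1 : (-Q a)⁻¹ * (2 * Q a) = 1 := by
    rw [zmod3_two, neg_one_mul]
    exact inv_mul_cancel₀ (neg_ne_zero.mpr ha)
  rw [h1, one_smul]
  abel

/-- Two reflections of norm `c` with non-orthogonal centres are conjugate under a reflection of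
norm `c`. -/
theorem exists_conj_of_polar_ne (Q : QuadraticForm (ZMod 3) (ι → ZMod 3))
    (hQ : (QuadraticMap.polarBilin Q).Nondegenerate) {c : ZMod 3} (hc : c ≠ 0)
    {a b : ι → ZMod 3} (ha0 : Q a ≠ 0) (hb0 : Q b ≠ 0) (ha : Q a = c) (hb : Q b = c)
    (hp : QuadraticMap.polar ⇑Q a b ≠ 0) :
    ∃ k ∈ Cfsg.reflectionSubgroup (⇑Q) c,
      k * reflElt Q hQ a ha0 * k⁻¹ = reflElt Q hQ b hb0 := by
  have hcinv := zmod3_inv hc
  have hcc := zmod3_mul_self hc
  have h3 : (3 : ZMod 3) = 0 := by decide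
  rcases zmod3_eq_or hc hp with hpc | hpc
  · -- w = a - b
    have hw : Q (a - b) = c := by
      have h := quad_sub_smul Q a b 1
      rw [one_smul] at h
      rw [h, ha, hb, hpc]; ring
    have hw0 : Q (a - b) ≠ 0 := by rw [hw]; exact hc
    refine ⟨reflElt Q hQ (a - b) hw0, reflElt_mem_reflectionSubgroup Q hQ c _ hw0 hw, ?_⟩
    rw [conj_reflElt]
    apply reflElt_congr
    rw [reflElt_coe, reflectionMatrix_mulVec, hw, QuadraticMap.polar_sub_left, polar_self_eq,
      QuadraticMap.polar_comm (⇑Q) b a, hpc, ha, hcinv]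
    have h1 : c * (2 * c - c) = 1 := by linear_combination hcc
    rw [h1, one_smul]
    abel
  · -- w = a + b
    have hw : Q (a + b) = c := by
      rw [QuadraticMap.map_add Q a b, ha, hb, hpc]; ring
    have hw0 : Q (a + b) ≠ 0 := by rw [hw]; exact hc
    have hnb : Q (-b) ≠ 0 := by rw [QuadraticMap.map_neg]; exact hb0
    refine ⟨reflElt Q hQ (a + b) hw0, reflElt_mem_reflectionSubgroup Q hQ c _ hw0 hw, ?_⟩
    rw [conj_reflElt, ← reflElt_neg Q hQ b hb0 hnb]
    apply reflElt_congr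
    rw [reflElt_coe, reflectionMatrix_mulVec, hw, QuadraticMap.polar_add_left, polar_self_eq,
      QuadraticMap.polar_comm (⇑Q) b a, hpc, ha, hcinv]
    have h1 : c * (2 * c + -c) = 1 := by linear_combination hcc
    rw [h1, one_smul]
    abel

/-- In dimension at least five over the field of three elements, the reflections of norm `c` are
conjugate under the group they generate. -/
theorem exists_mem_conj_refl (Q : QuadraticForm (ZMod 3) (ι → ZMod 3))
    (hQ : (QuadraticMap.polarBilin Q).Nondegenerate) (hn : 5 ≤ Fintype.card ι) {c : ZMod 3}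
    (hc : c ≠ 0) {a b : ι → ZMod 3} (ha0 : Q a ≠ 0) (hb0 : Q b ≠ 0) (ha : Q a = c)
    (hb : Q b = c) :
    ∃ k ∈ Cfsg.reflectionSubgroup (⇑Q) c,
      k * reflElt Q hQ a ha0 * k⁻¹ = reflElt Q hQ b hb0 := by
  by_cases hp : QuadraticMap.polar ⇑Q a b = 0
  · obtain ⟨z, hz, haz, hbz⟩ := exists_orth_pair_repr zmod3_two_ne Q hQ
      (by rw [Module.finrank_fintype_fun_eq_card]; exact hn) a b ha0 (-c)
    have h3 : (3 : ZMod 3) = 0 := by decide
    have h2c : (2 : ZMod 3) * c ≠ 0 := mul_ne_zero zmod3_two_ne hc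
    have hw : Q (a + b + z) = c := by
      rw [QuadraticMap.map_add Q (a + b) z, QuadraticMap.map_add Q a b,
        QuadraticMap.polar_add_left, ha, hb, hz, hp, haz, hbz]
      ring
    have hw0 : Q (a + b + z) ≠ 0 := by rw [hw]; exact hc
    have hp1 : QuadraticMap.polar ⇑Q a (a + b + z) ≠ 0 := by
      rw [QuadraticMap.polar_add_right, QuadraticMap.polar_add_right, polar_self_eq, hp, haz, ha,
        add_zero, add_zero]
      exact h2c
    have hp2 : QuadraticMap.polar ⇑Q (a + b + z) b ≠ 0 := by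
      rw [QuadraticMap.polar_add_left, QuadraticMap.polar_add_left, polar_self_eq, hp,
        QuadraticMap.polar_comm (⇑Q) z b, hbz, hb, add_zero, zero_add]
      exact h2c
    obtain ⟨k₁, hk₁, e₁⟩ := exists_conj_of_polar_ne Q hQ hc ha0 hw0 ha hw hp1
    obtain ⟨k₂, hk₂, e₂⟩ := exists_conj_of_polar_ne Q hQ hc hw0 hb0 hw hb hp2
    refine ⟨k₂ * k₁, Subgroup.mul_mem _ hk₂ hk₁, ?_⟩
    rw [← e₂, ← e₁]
    group
  · exact exists_conj_of_polar_ne Q hQ hc ha0 hb0 ha hb hp

/-- Two reflections of norm `c` over the field of three elements have product of order at most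
three. -/
theorem refl_pair_order (Q : QuadraticForm (ZMod 3) (ι → ZMod 3))
    (hQ : (QuadraticMap.polarBilin Q).Nondegenerate) {c : ZMod 3} (hc : c ≠ 0)
    {u v : ι → ZMod 3} (hu0 : Q u ≠ 0) (hv0 : Q v ≠ 0) (hu : Q u = c) (hv : Q v = c) :
    (reflElt Q hQ u hu0 * reflElt Q hQ v hv0) ^ 2 = 1 ∨
      (reflElt Q hQ u hu0 * reflElt Q hQ v hv0) ^ 3 = 1 := by
  have hcinv := zmod3_inv hc
  have hcc := zmod3_mul_self hc
  obtain ⟨a, ha⟩ : ∃ a, a = reflElt Q hQ u hu0 := ⟨_, rfl⟩
  obtain ⟨b, hb⟩ : ∃ b, b = reflElt Q hQ v hv0 := ⟨_, rfl⟩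
  rw [← ha, ← hb]
  have haa : a * a = 1 := by rw [ha]; exact reflElt_mul_self Q hQ u hu0
  have hbb : b * b = 1 := by rw [hb]; exact reflElt_mul_self Q hQ v hv0
  have hainv : a⁻¹ = a := inv_eq_of_mul_eq_one_left haa
  have hbinv : b⁻¹ = b := inv_eq_of_mul_eq_one_left hbb
  have hau : ((a : Matrix.GeneralLinearGroup ι (ZMod 3)) : Matrix ι ι (ZMod 3)) *ᵥ v =
      v - (c * QuadraticMap.polar ⇑Q u v) • u := by
    rw [ha, reflElt_coe, reflectionMatrix_mulVec, hu, hcinv]
  have hbv : ((b : Matrix.GeneralLinearGroup ι (ZMod 3)) : Matrix ι ι (ZMod 3)) *ᵥ u =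
      u - (c * QuadraticMap.polar ⇑Q u v) • v := by
    rw [hb, reflElt_coe, reflectionMatrix_mulVec, hv, hcinv, QuadraticMap.polar_comm]
  have c1 := conj_reflElt Q hQ a v hv0
  have c2 := conj_reflElt Q hQ b u hu0
  rw [← hb, hainv] at c1
  rw [← ha, hbinv] at c2
  by_cases hp : QuadraticMap.polar ⇑Q u v = 0
  · left
    have e1 : a * b * a = b := by
      rw [c1, hb]
      apply reflElt_congr
      rw [hau, hp, mul_zero, zero_smul, sub_zero]
    rw [pow_two]
    calc a * b * (a * b) = (a * b * a) * b := by group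
      _ = 1 := by rw [e1, hbb]
  · right
    have e1 : a * b * a = b * a * b := by
      rw [c1, c2]
      rcases zmod3_eq_or hc hp with hpc | hpc
      · have hw : Q (u - v) = c := by
          have h := quad_sub_smul Q u v 1
          rw [one_smul] at h
          rw [h, hu, hv, hpc]; ring
        have hnn' : Q (u - v) ≠ 0 := by rw [hw]; exact hc
        have hnn : Q (-(u - v)) ≠ 0 := by rw [QuadraticMap.map_neg]; exact hnn'
        have e2 : reflElt Q hQ (-(u - v)) hnn = reflElt Q hQ (u - v) hnn' :=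
          reflElt_neg Q hQ (u - v) hnn' hnn
        refine (reflElt_congr Q hQ _ hnn ?_).trans (e2.trans (reflElt_congr Q hQ hnn' _ ?_))
        · rw [hau, hpc, hcc, one_smul]; abel
        · rw [hbv, hpc, hcc, one_smul]
      · apply reflElt_congr
        rw [hau, hbv, hpc, mul_neg, hcc, neg_smul, neg_smul, one_smul, one_smul]
        abel
    rw [pow_succ, pow_two]
    calc a * b * (a * b) * (a * b) = (a * b * a) * (b * a * b) := by group
      _ = b * a * (b * b) * a * b := by rw [e1]; group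
      _ = 1 := by rw [hbb, mul_one, mul_assoc b a a, haa, mul_one, hbb]

/-- S5357: over the field of three elements, in dimension at least five, the reflections of norm
`c` form a class of 3-transpositions of the group they generate. -/
theorem isThreeTranspositionClass_reflF3 (Q : QuadraticForm (ZMod 3) (ι → ZMod 3))
    (hQ : (QuadraticMap.polarBilin Q).Nondegenerate) (hn : 5 ≤ Fintype.card ι) (c : ZMod 3)
    (hc : c ≠ 0) :
    Cfsg.IsThreeTranspositionClass {g : ↥(Cfsg.reflectionSubgroup (⇑Q) c) |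
      (g : ↥(Cfsg.isometryGroup (ZMod 3) (⇑Q))) ∈ Cfsg.reflectionsOfNorm (⇑Q) c} := by
  refine ⟨⟨?_, ?_⟩, ?_, ?_⟩
  · intro d hd
    obtain ⟨v, hv0, hv, hdv⟩ := (mem_reflectionsOfNorm_iff Q hQ hc _).mp hd
    rw [← Subgroup.orderOf_coe, hdv]
    exact orderOf_reflElt Q hQ v hv0
  · intro d hd e he
    obtain ⟨u, hu0, hu, hdu⟩ := (mem_reflectionsOfNorm_iff Q hQ hc _).mp hd
    obtain ⟨v, hv0, hv, hev⟩ := (mem_reflectionsOfNorm_iff Q hQ hc _).mp he
    rcases refl_pair_order Q hQ hc hu0 hv0 hu hv with h | h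
    · left
      apply Subtype.ext
      rw [Subgroup.coe_pow, Subgroup.coe_mul, hdu, hev, h]
      rfl
    · right
      apply Subtype.ext
      rw [Subgroup.coe_pow, Subgroup.coe_mul, hdu, hev, h]
      rfl
  · obtain ⟨v₀, hv₀c⟩ := exists_vec_quad_eq zmod3_two_ne Q hQ (by omega) c
    have hv₀ : Q v₀ ≠ 0 := by rw [hv₀c]; exact hc
    refine ⟨⟨reflElt Q hQ v₀ hv₀, reflElt_mem_reflectionSubgroup Q hQ c v₀ hv₀ hv₀c⟩,
      ⟨v₀, hv₀c, rfl⟩, ?_⟩
    ext g
    constructor
    · intro hg
      obtain ⟨v, hv0, hv, hgv⟩ := (mem_reflectionsOfNorm_iff Q hQ hc _).mp hg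
      obtain ⟨k, hk, hconj⟩ := exists_mem_conj_refl Q hQ hn hc hv₀ hv0 hv₀c hv
      change IsConj _ g
      rw [isConj_iff]
      refine ⟨⟨k, hk⟩, ?_⟩
      apply Subtype.ext
      rw [Subgroup.coe_mul, Subgroup.coe_mul, Subgroup.coe_inv, hgv]
      exact hconj
    · intro hg
      obtain ⟨k, rfl⟩ := isConj_iff.mp (show IsConj _ g from hg)
      change ((k * _ * k⁻¹ : ↥(Cfsg.reflectionSubgroup (⇑Q) c)) :
        ↥(Cfsg.isometryGroup (ZMod 3) (⇑Q))) ∈ Cfsg.reflectionsOfNorm (⇑Q) c
      rw [Subgroup.coe_mul, Subgroup.coe_mul, Subgroup.coe_inv]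
      change (k : ↥(Cfsg.isometryGroup (ZMod 3) (⇑Q))) * reflElt Q hQ v₀ hv₀ *
        (k : ↥(Cfsg.isometryGroup (ZMod 3) (⇑Q)))⁻¹ ∈ Cfsg.reflectionsOfNorm (⇑Q) c
      rw [conj_reflElt]
      exact ⟨_, (isom_preserves (k : ↥(Cfsg.isometryGroup (ZMod 3) (⇑Q))) v₀).trans hv₀c,
        reflElt_coe _ _ _ _⟩
  · exact Subgroup.closure_closure_coe_preimage

/-- S5359: over the field of three elements, in dimension at least five, the reflections of norm
`c` generate a subgroup of index two of the isometry group. -/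
theorem index_reflectionSubgroup_f3 (Q : QuadraticForm (ZMod 3) (ι → ZMod 3))
    (hQ : (QuadraticMap.polarBilin Q).Nondegenerate) (hn : 5 ≤ Fintype.card ι) (c : ZMod 3)
    (hc : c ≠ 0) : (Cfsg.reflectionSubgroup (⇑Q) c).index = 2 := by
  have h2 : (2 : ZMod 3) ≠ 0 := zmod3_two_ne
  have hcc := zmod3_mul_self hc
  have hnc : -c ≠ 0 := neg_ne_zero.mpr hc
  have hψc : ∀ (v : ι → ZMod 3) (hv : Q v ≠ 0), Q v = c →
      signChar (⇑Q) (-c) (reflElt Q hQ v hv) = 1 := by
    intro v hv hvc
    apply (signChar_reflElt h2 Q hQ hnc v hv).2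
    rw [hvc, neg_mul, hcc]
    rintro ⟨r, hr⟩
    revert r
    decide
  have hψd : ∀ (v : ι → ZMod 3) (hv : Q v ≠ 0), Q v = -c →
      signChar (⇑Q) (-c) (reflElt Q hQ v hv) = -1 := by
    intro v hv hvc
    apply (signChar_reflElt h2 Q hQ hnc v hv).1
    rw [hvc]
    exact ⟨-c, rfl⟩
  have hnorm := reflectionSubgroup_normal Q hQ hc
  obtain ⟨a₁, ha₁⟩ := exists_vec_quad_eq h2 Q hQ (by omega) (-c)
  have ha₁0 : Q a₁ ≠ 0 := by rw [ha₁]; exact hnc
  -- products of two reflections of the other class lie in the subgroup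
  have key : ∀ (a b : ι → ZMod 3) (ha0 : Q a ≠ 0) (hb0 : Q b ≠ 0), Q a = -c → Q b = -c →
      reflElt Q hQ a ha0 * reflElt Q hQ b hb0 ∈ Cfsg.reflectionSubgroup (⇑Q) c := by
    intro a b ha0 hb0 ha hb
    obtain ⟨e, he, hae, hbe⟩ := exists_orth_pair_repr h2 Q hQ
      (by rw [Module.finrank_fintype_fun_eq_card]; exact hn) a b ha0 (-c)
    have he0 : Q e ≠ 0 := by rw [he]; exact hnc
    have hae' : Q a = Q e := ha.trans he.symm
    have heb' : Q e = Q b := he.trans hb.symm
    have hbe' : QuadraticMap.polar ⇑Q e b = 0 := by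
      rw [QuadraticMap.polar_comm]; exact hbe
    have q1 : Q (a - e) = c := by rw [quad_sub_of_orth Q hae' hae, ha, neg_neg]
    have q2 : Q (e - b) = c := by rw [quad_sub_of_orth Q heb' hbe', he, neg_neg]
    have q10 : Q (a - e) ≠ 0 := by rw [q1]; exact hc
    have q20 : Q (e - b) ≠ 0 := by rw [q2]; exact hc
    have hh₁ := reflElt_mem_reflectionSubgroup Q hQ c (a - e) q10 q1
    have hh₂ := reflElt_mem_reflectionSubgroup Q hQ c (e - b) q20 q2
    have e1 : reflElt Q hQ (a - e) q10 * reflElt Q hQ a ha0 * (reflElt Q hQ (a - e) q10)⁻¹ =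
        reflElt Q hQ e he0 := by
      rw [conj_reflElt]
      apply reflElt_congr
      rw [reflElt_coe]
      exact refl_sub_mulVec Q ha0 hae' hae
    have e2 : reflElt Q hQ (e - b) q20 * reflElt Q hQ e he0 * (reflElt Q hQ (e - b) q20)⁻¹ =
        reflElt Q hQ b hb0 := by
      rw [conj_reflElt]
      apply reflElt_congr
      rw [reflElt_coe]
      exact refl_sub_mulVec Q he0 heb' hbe'
    have hainv : (reflElt Q hQ a ha0)⁻¹ = reflElt Q hQ a ha0 :=
      inv_eq_of_mul_eq_one_left (reflElt_mul_self Q hQ a ha0)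
    have hk := Subgroup.mul_mem _ hh₂ hh₁
    have e3 : reflElt Q hQ a ha0 * reflElt Q hQ b hb0 =
        (reflElt Q hQ a ha0 * (reflElt Q hQ (e - b) q20 * reflElt Q hQ (a - e) q10) *
          (reflElt Q hQ a ha0)⁻¹) *
          (reflElt Q hQ (e - b) q20 * reflElt Q hQ (a - e) q10)⁻¹ := by
      rw [← e2, ← e1, hainv]
      group
    rw [e3]
    exact Subgroup.mul_mem _ (hnorm.conj_mem _ hk _) (Subgroup.inv_mem _ hk)
  -- every element lies in the subgroup or in its coset by `r_{a₁}`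
  have hall : ∀ (l : List (ι → ZMod 3)) (hl : ∀ u ∈ l, Q u ≠ 0),
      prodElt Q hQ l hl ∈ Cfsg.reflectionSubgroup (⇑Q) c ∨
        reflElt Q hQ a₁ ha₁0 * prodElt Q hQ l hl ∈ Cfsg.reflectionSubgroup (⇑Q) c := by
    intro l
    induction l with
    | nil =>
      intro hl
      left
      rw [prodElt_nil]
      exact Subgroup.one_mem _
    | cons x l ih =>
      intro hl
      rw [prodElt_cons]
      have hx0 : Q x ≠ 0 := hl x (List.mem_cons_self ..)
      rcases ih (fun u hu => hl u (List.mem_cons_of_mem _ hu)) with h | h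
      · rcases zmod3_eq_or hc hx0 with hx | hx
        · left
          exact Subgroup.mul_mem _ (reflElt_mem_reflectionSubgroup Q hQ c x hx0 hx) h
        · right
          rw [← mul_assoc]
          exact Subgroup.mul_mem _ (key a₁ x ha₁0 hx0 ha₁ hx) h
      · rcases zmod3_eq_or hc hx0 with hx | hx
        · right
          have e : reflElt Q hQ a₁ ha₁0 * (reflElt Q hQ x hx0 *
              prodElt Q hQ l (fun u hu => hl u (List.mem_cons_of_mem _ hu))) =
              (reflElt Q hQ a₁ ha₁0 * reflElt Q hQ x hx0 * (reflElt Q hQ a₁ ha₁0)⁻¹) *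
              (reflElt Q hQ a₁ ha₁0 *
                prodElt Q hQ l (fun u hu => hl u (List.mem_cons_of_mem _ hu))) := by
            group
          rw [e]
          exact Subgroup.mul_mem _
            (hnorm.conj_mem _ (reflElt_mem_reflectionSubgroup Q hQ c x hx0 hx) _) h
        · left
          have e : reflElt Q hQ x hx0 *
              prodElt Q hQ l (fun u hu => hl u (List.mem_cons_of_mem _ hu)) =
              (reflElt Q hQ x hx0 * reflElt Q hQ a₁ ha₁0) * (reflElt Q hQ a₁ ha₁0 *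
                prodElt Q hQ l (fun u hu => hl u (List.mem_cons_of_mem _ hu))) := by
            rw [mul_assoc, ← mul_assoc (reflElt Q hQ a₁ ha₁0), reflElt_mul_self, one_mul]
          rw [e]
          exact Subgroup.mul_mem _ (key x a₁ hx0 ha₁0 hx ha₁) h
  have hle : Cfsg.reflectionSubgroup (⇑Q) c ≤ (signChar (⇑Q) (-c)).ker := by
    unfold Cfsg.reflectionSubgroup
    rw [Subgroup.closure_le]
    intro g hg
    obtain ⟨v, hv0, hv, rfl⟩ := (mem_reflectionsOfNorm_iff Q hQ hc g).mp hg
    rw [SetLike.mem_coe, MonoidHom.mem_ker]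
    exact hψc v hv0 hv
  have hRker : Cfsg.reflectionSubgroup (⇑Q) c = (signChar (⇑Q) (-c)).ker := by
    apply le_antisymm hle
    intro g hg
    obtain ⟨l, hl, rfl⟩ := exists_eq_prodElt h2 Q hQ g
    rcases hall l hl with h | h
    · exact h
    · exfalso
      have h1 := MonoidHom.mem_ker.mp (hle h)
      rw [map_mul, hψd a₁ ha₁0 ha₁, MonoidHom.mem_ker.mp hg] at h1
      revert h1
      decide
  rw [hRker]
  have hsurj : Function.Surjective (signChar (⇑Q) (-c)) := by
    intro e
    rcases Int.units_eq_one_or e with rfl | rfl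
    · exact ⟨1, map_one _⟩
    · exact ⟨_, hψd a₁ ha₁0 ha₁⟩
  rw [Subgroup.index_ker, MonoidHom.range_eq_top.mpr hsurj, Subgroup.card_top,
    Nat.card_eq_fintype_card, Fintype.card_units_int]

end f3

end Cfsg.Agent.Lib.Helper44
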