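import Mathlib
import Cfsg.Agent.Lib.Helper44.SiegelGen
import Cfsg.Agent.Lib.Helper44.ReflF3
import Cfsg.Agent.Lib.Helper14.Spinor2
import Cfsg.Agent.Lib.Helper14.ReflGen

set_option autoImplicit false

namespace Cfsg.Agent.Lib.Helper44

open Matrix Module Cfsg.Agent.Lib.Helper14

section reflindex

variable {ι : Type} [Fintype ι] [DecidableEq ι] {F : Type*} [Field F]

/-- The reflections `r_v` with `Q v ∈ c (F^×)²`. -/
def classReflSet (Q : QuadraticForm F (ι → F)) (c : F) : Set ↥(Cfsg.isometryGroup F ⇑Q) :=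
  {g | ∃ (v : ι → F) (t : F), t ≠ 0 ∧ Q v = c * t ^ 2 ∧
    ((g : Matrix.GeneralLinearGroup ι F) : Matrix ι ι F) = Cfsg.reflectionMatrix ⇑Q v}

theorem reflElt_mem_classRefl (Q : QuadraticForm F (ι → F))
    (hQ : (QuadraticMap.polarBilin Q).Nondegenerate) {c : F} (hc : c ≠ 0) (v : ι → F)
    (hv : Q v ≠ 0) (hsq : IsSquare (c * Q v)) :
    reflElt Q hQ v hv ∈ Subgroup.closure (classReflSet Q c) := by
  obtain ⟨s, hs⟩ := hsq
  have hs0 : s ≠ 0 := by
    rintro rfl
    rw [mul_zero] at hs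
    exact mul_ne_zero hc hv hs
  refine Subgroup.subset_closure ⟨v, s / c, div_ne_zero hs0 hc, ?_, reflElt_coe _ _ _ _⟩
  field_simp
  linear_combination hs

theorem classRefl_normal (Q : QuadraticForm F (ι → F))
    (hQ : (QuadraticMap.polarBilin Q).Nondegenerate) {c : F} (hc : c ≠ 0) :
    (Subgroup.closure (classReflSet Q c)).Normal := by
  have h : Subgroup.closure (classReflSet Q c) = Subgroup.normalClosure (classReflSet Q c) := by
    apply le_antisymm
    · exact Subgroup.closure_le_normalClosure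
    · unfold Subgroup.normalClosure
      apply Subgroup.closure_mono
      intro g hg
      obtain ⟨g₀, hg₀, hconj⟩ := Group.mem_conjugatesOfSet_iff.mp hg
      obtain ⟨k, rfl⟩ := isConj_iff.mp hconj
      obtain ⟨v, t, ht, hv, hmat⟩ := hg₀
      have hv0 : Q v ≠ 0 := by rw [hv]; exact mul_ne_zero hc (pow_ne_zero 2 ht)
      have hg₀' : g₀ = reflElt Q hQ v hv0 := isom_ext (by rw [hmat, reflElt_coe])
      rw [hg₀', conj_reflElt]
      exact ⟨_, t, ht, by rw [isom_preserves k v]; exact hv, reflElt_coe _ _ _ _⟩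
  rw [h]
  exact Subgroup.normalClosure_normal

theorem reflElt_smul (Q : QuadraticForm F (ι → F))
    (hQ : (QuadraticMap.polarBilin Q).Nondegenerate) (v : ι → F) (hv : Q v ≠ 0) {t : F}
    (ht : t ≠ 0) (hv' : Q (t • v) ≠ 0) : reflElt Q hQ (t • v) hv' = reflElt Q hQ v hv := by
  apply isom_ext
  rw [reflElt_coe, reflElt_coe, Matrix.ext_iff_mulVec]
  intro x
  rw [reflectionMatrix_mulVec, reflectionMatrix_mulVec, QuadraticMap.map_smul,
    QuadraticMap.polar_smul_left, smul_smul]
  congr 2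
  simp only [smul_eq_mul]
  field_simp

omit [Fintype ι] [DecidableEq ι] in
theorem refl_mul_refl_mulVec_of_orth [Fintype ι] [DecidableEq ι] (Q : QuadraticForm F (ι → F))
    {a e : ι → F} (horth : QuadraticMap.polar ⇑Q a e = 0) (z : ι → F) :
    (Cfsg.reflectionMatrix ⇑Q a * Cfsg.reflectionMatrix ⇑Q e) *ᵥ z =
      z - ((Q a)⁻¹ * QuadraticMap.polar ⇑Q a z) • a - ((Q e)⁻¹ * QuadraticMap.polar ⇑Q e z) • e := by
  rw [← mulVec_mulVec, reflectionMatrix_mulVec, reflectionMatrix_mulVec,
    QuadraticMap.polar_sub_right, QuadraticMap.polar_smul_right, horth]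
  simp only [smul_eq_mul, mul_zero, sub_zero]
  abel

variable [Fintype F]

omit [Fintype ι] [DecidableEq ι] in
theorem exists_sq_add_sq (h2 : (2 : F) ≠ 0) (μ : F) : ∃ x y : F, x ^ 2 + y ^ 2 = μ := by
  have hF : ringChar F ≠ 2 := by
    intro h
    apply h2
    have := CharP.cast_eq_zero F (ringChar F)
    rw [h] at this
    exact_mod_cast this
  have hodd : Fintype.card F % 2 = 1 := FiniteField.odd_card_of_char_ne_two hF
  obtain ⟨x, y, h⟩ := FiniteField.exists_root_sum_quadratic (f := Polynomial.X ^ 2)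
    (g := Polynomial.X ^ 2 - Polynomial.C μ) (Polynomial.degree_X_pow 2)
    (Polynomial.degree_X_pow_sub_C (by decide) _) hodd
  refine ⟨x, y, ?_⟩
  simp only [Polynomial.eval_pow, Polynomial.eval_X, Polynomial.eval_sub, Polynomial.eval_C] at h
  linear_combination h

/-- The product of the reflections along two orthogonal vectors of the same norm is a product
of two reflections along vectors of norm `c`. -/
theorem refl_orth_pair_mem (h2 : (2 : F) ≠ 0) (Q : QuadraticForm F (ι → F))
    (hQ : (QuadraticMap.polarBilin Q).Nondegenerate) {c : F} (hc : c ≠ 0) (a e : ι → F)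
    (ha : Q a ≠ 0) (he : Q e ≠ 0) (hae : Q e = Q a) (horth : QuadraticMap.polar ⇑Q a e = 0) :
    reflElt Q hQ a ha * reflElt Q hQ e he ∈ Subgroup.closure (classReflSet Q c) := by
  obtain ⟨x, y, hxy⟩ := exists_sq_add_sq h2 (c / Q a)
  have hxy' : (x ^ 2 + y ^ 2) * Q a = c := by rw [hxy]; field_simp
  have hea : QuadraticMap.polar ⇑Q e a = 0 := by rw [QuadraticMap.polar_comm]; exact horth
  obtain ⟨v, hvdef⟩ : ∃ v, v = x • a + y • e := ⟨_, rfl⟩
  obtain ⟨v', hv'def⟩ : ∃ v', v' = (-y) • a + x • e := ⟨_, rfl⟩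
  have hQv : Q v = c := by
    rw [hvdef, QuadraticMap.map_add Q, QuadraticMap.map_smul, QuadraticMap.map_smul,
      QuadraticMap.polar_smul_left, QuadraticMap.polar_smul_right, horth, hae]
    simp only [smul_eq_mul]
    linear_combination hxy'
  have hQv' : Q v' = c := by
    rw [hv'def, QuadraticMap.map_add Q, QuadraticMap.map_smul, QuadraticMap.map_smul,
      QuadraticMap.polar_smul_left, QuadraticMap.polar_smul_right, horth, hae]
    simp only [smul_eq_mul]
    linear_combination hxy'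
  have hvv' : QuadraticMap.polar ⇑Q v v' = 0 := by
    rw [hvdef, hv'def]
    simp only [QuadraticMap.polar_add_left, QuadraticMap.polar_add_right,
      QuadraticMap.polar_smul_left, QuadraticMap.polar_smul_right, horth, hea,
      polar_self_eq, hae, smul_eq_mul]
    ring
  have hv0 : Q v ≠ 0 := by rw [hQv]; exact hc
  have hv'0 : Q v' ≠ 0 := by rw [hQv']; exact hc
  have hcsq : IsSquare (c * c) := ⟨c, rfl⟩
  have hmem : reflElt Q hQ v hv0 * reflElt Q hQ v' hv'0 ∈ Subgroup.closure (classReflSet Q c) :=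
    Subgroup.mul_mem _ (reflElt_mem_classRefl Q hQ hc v hv0 (by rw [hQv]; exact hcsq))
      (reflElt_mem_classRefl Q hQ hc v' hv'0 (by rw [hQv']; exact hcsq))
  have heq : reflElt Q hQ a ha * reflElt Q hQ e he =
      reflElt Q hQ v hv0 * reflElt Q hQ v' hv'0 := by
    apply isom_ext
    simp only [Subgroup.coe_mul, Units.val_mul, reflElt_coe]
    rw [Matrix.ext_iff_mulVec]
    intro z
    rw [refl_mul_refl_mulVec_of_orth Q horth, refl_mul_refl_mulVec_of_orth Q hvv', hQv, hQv',
      hae]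
    have p1 : QuadraticMap.polar ⇑Q v z =
        x * QuadraticMap.polar ⇑Q a z + y * QuadraticMap.polar ⇑Q e z := by
      rw [hvdef, QuadraticMap.polar_add_left, QuadraticMap.polar_smul_left,
        QuadraticMap.polar_smul_left]
      simp only [smul_eq_mul]
    have p2 : QuadraticMap.polar ⇑Q v' z =
        (-y) * QuadraticMap.polar ⇑Q a z + x * QuadraticMap.polar ⇑Q e z := by
      rw [hv'def, QuadraticMap.polar_add_left, QuadraticMap.polar_smul_left,
        QuadraticMap.polar_smul_left]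
      simp only [smul_eq_mul]
    rw [p1, p2, hvdef, hv'def]
    have hN : x ^ 2 + y ^ 2 ≠ 0 := by
      intro h
      rw [h, zero_mul] at hxy'
      exact hc hxy'.symm
    have hcd : c⁻¹ * (x ^ 2 + y ^ 2) = (Q a)⁻¹ := by
      rw [← hxy']
      field_simp
    have e1 : z - (c⁻¹ * (x * QuadraticMap.polar ⇑Q a z + y * QuadraticMap.polar ⇑Q e z)) •
          (x • a + y • e) -
        (c⁻¹ * (-y * QuadraticMap.polar ⇑Q a z + x * QuadraticMap.polar ⇑Q e z)) •
          (-y • a + x • e) =
        z - ((c⁻¹ * (x ^ 2 + y ^ 2)) * QuadraticMap.polar ⇑Q a z) • a -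
          ((c⁻¹ * (x ^ 2 + y ^ 2)) * QuadraticMap.polar ⇑Q e z) • e := by
      module
    rw [e1, hcd]
  rw [heq]
  exact hmem

omit [DecidableEq ι] in
/-- The orthogonal complement of a non-degenerate subspace of codimension at least two
represents every scalar. -/
theorem exists_orth_repr_of_nondeg (Q : QuadraticForm F (ι → F))
    (hQ : (QuadraticMap.polarBilin Q).Nondegenerate) (U : Submodule F (ι → F))
    (hU : U ⊓ orth Q U = ⊥) (h : finrank F U + 2 ≤ Fintype.card ι) (d : F) :
    ∃ e ∈ orth Q U, Q e = d := by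
  have hX2 : 2 ≤ finrank F (orth Q U) := by
    rw [finrank_orth Q hQ U, Module.finrank_fintype_fun_eq_card]
    omega
  have hXnd : Cfsg.Agent.Lib.Helper99.QNondegOn Q (orth Q U) := by
    intro u hu huv
    have hu2 : u ∈ orth Q (orth Q U) :=
      (mem_orth_iff Q (orth Q U) u).mpr fun y hy => by
        rw [QuadraticMap.polar_comm]
        exact huv y hy
    rw [orth_orth Q hQ] at hu2
    have : u ∈ U ⊓ orth Q U := Submodule.mem_inf.mpr ⟨hu2, hu⟩
    rw [hU] at this
    exact (Submodule.mem_bot F).mp this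
  exact Cfsg.Agent.Lib.Helper99.exists_repr_of_nondeg Q (orth Q U) hXnd hX2 d

/-- Splitting `r_a r_b` through a vector `e` orthogonal to both, of the same norm. -/
theorem refl_pair_mem_of_orth (h2 : (2 : F) ≠ 0) (Q : QuadraticForm F (ι → F))
    (hQ : (QuadraticMap.polarBilin Q).Nondegenerate) {c : F} (hc : c ≠ 0) (a b e : ι → F)
    (ha : Q a ≠ 0) (hb : Q b ≠ 0) (hab : Q b = Q a) (he : Q e = Q a)
    (hae : QuadraticMap.polar ⇑Q a e = 0) (hbe : QuadraticMap.polar ⇑Q b e = 0) :
    reflElt Q hQ a ha * reflElt Q hQ b hb ∈ Subgroup.closure (classReflSet Q c) := by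
  have he0 : Q e ≠ 0 := by rw [he]; exact ha
  have heb : QuadraticMap.polar ⇑Q e b = 0 := by rw [QuadraticMap.polar_comm]; exact hbe
  have h1 := refl_orth_pair_mem h2 Q hQ hc a e ha he0 he hae
  have h2' := refl_orth_pair_mem h2 Q hQ hc e b he0 hb (hab.trans he.symm) heb
  have e : reflElt Q hQ a ha * reflElt Q hQ b hb =
      (reflElt Q hQ a ha * reflElt Q hQ e he0) * (reflElt Q hQ e he0 * reflElt Q hQ b hb) := by
    rw [mul_assoc, ← mul_assoc (reflElt Q hQ e he0), reflElt_mul_self, one_mul]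
  rw [e]
  exact Subgroup.mul_mem _ h1 h2'

/-- Dimension at least five: `r_a r_b` for `Q a = Q b`. -/
theorem refl_pair_mem_of_five (h2 : (2 : F) ≠ 0) (Q : QuadraticForm F (ι → F))
    (hQ : (QuadraticMap.polarBilin Q).Nondegenerate) (h5 : 5 ≤ Fintype.card ι) {c : F}
    (hc : c ≠ 0) (a b : ι → F) (ha : Q a ≠ 0) (hb : Q b ≠ 0) (hab : Q b = Q a) :
    reflElt Q hQ a ha * reflElt Q hQ b hb ∈ Subgroup.closure (classReflSet Q c) := by
  obtain ⟨e, he, hae, hbe⟩ := exists_orth_pair_repr h2 Q hQ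
    (by rw [Module.finrank_fintype_fun_eq_card]; exact h5) a b ha (Q a)
  exact refl_pair_mem_of_orth h2 Q hQ hc a b e ha hb hab he hae hbe

/-- Dimension at least four, `a, b` spanning a non-degenerate plane. -/
theorem refl_pair_mem_of_nondeg (h2 : (2 : F) ≠ 0) (Q : QuadraticForm F (ι → F))
    (hQ : (QuadraticMap.polarBilin Q).Nondegenerate) (h4 : 4 ≤ Fintype.card ι) {c : F}
    (hc : c ≠ 0) (a b : ι → F) (ha : Q a ≠ 0) (hb : Q b ≠ 0) (hab : Q b = Q a)
    (hnd : QuadraticMap.polar ⇑Q a b ^ 2 ≠ 4 * Q a ^ 2) :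
    reflElt Q hQ a ha * reflElt Q hQ b hb ∈ Subgroup.closure (classReflSet Q c) := by
  obtain ⟨U, hUdef⟩ : ∃ U : Submodule F (ι → F), U = (F ∙ a) ⊔ (F ∙ b) := ⟨_, rfl⟩
  have haU : a ∈ U := by
    rw [hUdef]; exact Submodule.mem_sup_left (Submodule.mem_span_singleton_self a)
  have hbU : b ∈ U := by
    rw [hUdef]; exact Submodule.mem_sup_right (Submodule.mem_span_singleton_self b)
  have hUrank : finrank F U ≤ 2 := by
    rw [hUdef]
    have h2' := Submodule.finrank_add_le_finrank_add_finrank (F ∙ a) (F ∙ b)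
    have h3 := finrank_span_singleton_le_one (F := F) a
    have h4' := finrank_span_singleton_le_one (F := F) b
    omega
  have hU : U ⊓ orth Q U = ⊥ := by
    rw [eq_bot_iff]
    intro x hx
    obtain ⟨hxU, hxo⟩ := Submodule.mem_inf.mp hx
    rw [hUdef] at hxU
    obtain ⟨y, hy, z, hz, rfl⟩ := Submodule.mem_sup.mp hxU
    obtain ⟨α, rfl⟩ := Submodule.mem_span_singleton.mp hy
    obtain ⟨β, rfl⟩ := Submodule.mem_span_singleton.mp hz
    have e1 := (mem_orth_iff Q U _).mp hxo a haU
    have e2 := (mem_orth_iff Q U _).mp hxo b hbU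
    rw [QuadraticMap.polar_add_right, QuadraticMap.polar_smul_right,
      QuadraticMap.polar_smul_right, polar_self_eq] at e1
    rw [QuadraticMap.polar_add_right, QuadraticMap.polar_smul_right,
      QuadraticMap.polar_smul_right, polar_self_eq, QuadraticMap.polar_comm (⇑Q) b a, hab] at e2
    simp only [smul_eq_mul] at e1 e2
    have hdet : 4 * Q a ^ 2 - QuadraticMap.polar ⇑Q a b ^ 2 ≠ 0 := by
      intro h
      exact hnd (by linear_combination -h)
    have hα : α = 0 := by
      have : (4 * Q a ^ 2 - QuadraticMap.polar ⇑Q a b ^ 2) * α = 0 := by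
        linear_combination (2 * Q a) * e1 - (QuadraticMap.polar ⇑Q a b) * e2
      exact (mul_eq_zero.mp this).resolve_left hdet
    have hβ : β = 0 := by
      have : (4 * Q a ^ 2 - QuadraticMap.polar ⇑Q a b ^ 2) * β = 0 := by
        linear_combination (2 * Q a) * e2 - (QuadraticMap.polar ⇑Q a b) * e1
      exact (mul_eq_zero.mp this).resolve_left hdet
    rw [hα, hβ]
    simp
  obtain ⟨e, heo, he⟩ := exists_orth_repr_of_nondeg Q hQ U hU (by omega) (Q a)
  exact refl_pair_mem_of_orth h2 Q hQ hc a b e ha hb hab he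
    ((mem_orth_iff Q U e).mp heo a haU) ((mem_orth_iff Q U e).mp heo b hbU)

omit [Fintype ι] [DecidableEq ι] in
theorem exists_avoid_three' (hF : 3 < Fintype.card F) (u v w : F) :
    ∃ y : F, y ≠ u ∧ y ≠ v ∧ y ≠ w := by
  classical
  by_contra hcon
  push Not at hcon
  have hsub : (Finset.univ : Finset F) ⊆ {u, v, w} := by
    intro y _
    simp only [Finset.mem_insert, Finset.mem_singleton]
    by_cases h1 : y = u
    · exact Or.inl h1
    · by_cases h2 : y = v
      · exact Or.inr (Or.inl h2)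
      · exact Or.inr (Or.inr (hcon y h1 h2))
  have := Finset.card_le_card hsub
  have h3 : ({u, v, w} : Finset F).card ≤ 3 := Finset.card_le_three
  rw [Finset.card_univ] at this
  omega

/-- Dimension at least four, more than three scalars: the degenerate case `f(a,b) = 2 Q a`. -/
theorem refl_pair_mem_of_four_aux (h2 : (2 : F) ≠ 0) (Q : QuadraticForm F (ι → F))
    (hQ : (QuadraticMap.polarBilin Q).Nondegenerate) (h4 : 4 ≤ Fintype.card ι)
    (hF : 3 < Fintype.card F) {c : F}
    (hc : c ≠ 0) (a b : ι → F) (ha : Q a ≠ 0) (hb : Q b ≠ 0) (hab : Q b = Q a)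
    (hdeg : QuadraticMap.polar ⇑Q a b = 2 * Q a) :
    reflElt Q hQ a ha * reflElt Q hQ b hb ∈ Subgroup.closure (classReflSet Q c) := by
  by_cases hba : b = a
  · have : reflElt Q hQ b hb = reflElt Q hQ a ha := reflElt_congr Q hQ hb ha hba
    rw [this, reflElt_mul_self]
    exact Subgroup.one_mem _
  obtain ⟨s, hsdef⟩ : ∃ s, s = b - a := ⟨_, rfl⟩
  have hs0 : s ≠ 0 := by
    rw [hsdef]
    exact sub_ne_zero.mpr hba
  have hQs : Q s = 0 := by
    have h := quad_sub_smul Q b a 1
    rw [one_smul] at h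
    rw [hsdef, h, QuadraticMap.polar_comm (⇑Q) b a, hdeg, hab]
    ring
  have has : QuadraticMap.polar ⇑Q a s = 0 := by
    rw [hsdef, QuadraticMap.polar_sub_right, hdeg, polar_self_eq]
    ring
  have hss : QuadraticMap.polar ⇑Q s s = 0 := by rw [polar_self_eq, hQs, mul_zero]
  have hsW : s ∉ F ∙ a := by
    intro h
    obtain ⟨α, hα⟩ := Submodule.mem_span_singleton.mp h
    have : Q s = α * α * Q a := by rw [← hα, QuadraticMap.map_smul, smul_eq_mul]
    rw [hQs] at this
    have hα0 : α = 0 := by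
      rcases mul_eq_zero.mp this.symm with h | h
      · exact mul_self_eq_zero.mp h
      · exact absurd h ha
    rw [hα0, zero_smul] at hα
    exact hs0 hα.symm
  obtain ⟨t₀, ht₀, hne⟩ := exists_mem_orth_polar_ne Q hQ (F ∙ a) hsW
  have hat₀ : QuadraticMap.polar ⇑Q a t₀ = 0 :=
    (mem_orth_iff Q (F ∙ a) t₀).mp ht₀ a (Submodule.mem_span_singleton_self a)
  obtain ⟨t₁, ht₁def⟩ : ∃ t₁, t₁ = (QuadraticMap.polar ⇑Q t₀ s)⁻¹ • t₀ := ⟨_, rfl⟩
  have hat₁ : QuadraticMap.polar ⇑Q a t₁ = 0 := by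
    rw [ht₁def, QuadraticMap.polar_smul_right, hat₀, smul_zero]
  have ht₁s : QuadraticMap.polar ⇑Q t₁ s = 1 := by
    rw [ht₁def, QuadraticMap.polar_smul_left, smul_eq_mul, inv_mul_cancel₀ hne]
  obtain ⟨t, htdef⟩ : ∃ t, t = t₁ - Q t₁ • s := ⟨_, rfl⟩
  have hQt : Q t = 0 := by rw [htdef, quad_sub_smul, hQs, ht₁s]; ring
  have hst : QuadraticMap.polar ⇑Q s t = 1 := by
    rw [htdef, QuadraticMap.polar_sub_right, QuadraticMap.polar_smul_right, hss,
      QuadraticMap.polar_comm (⇑Q) s t₁, ht₁s]; simp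
  have hat : QuadraticMap.polar ⇑Q a t = 0 := by
    rw [htdef, QuadraticMap.polar_sub_right, QuadraticMap.polar_smul_right, hat₁, has]; simp
  obtain ⟨y, hy0, hy1, hy2⟩ := exists_avoid_three' hF (0 : F) (2 * Q a) (-(2 * Q a))
  obtain ⟨e, hedef⟩ : ∃ e, e = (Q a / y) • s + y • t := ⟨_, rfl⟩
  have hQe : Q e = Q a := by
    rw [hedef, QuadraticMap.map_add Q, QuadraticMap.map_smul, QuadraticMap.map_smul, hQs, hQt,
      QuadraticMap.polar_smul_left, QuadraticMap.polar_smul_right, hst]
    simp only [smul_eq_mul]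
    field_simp
    ring
  have hae : QuadraticMap.polar ⇑Q a e = 0 := by
    rw [hedef, QuadraticMap.polar_add_right, QuadraticMap.polar_smul_right,
      QuadraticMap.polar_smul_right, has, hat]
    simp
  have hbdef : b = s + a := by rw [hsdef]; abel
  have heb : QuadraticMap.polar ⇑Q e b = y := by
    rw [QuadraticMap.polar_comm, hbdef, QuadraticMap.polar_add_left, hae, hedef,
      QuadraticMap.polar_add_right, QuadraticMap.polar_smul_right,
      QuadraticMap.polar_smul_right, hss, hst]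
    simp
  have he0 : Q e ≠ 0 := by rw [hQe]; exact ha
  have h1 := refl_orth_pair_mem h2 Q hQ hc a e ha he0 hQe hae
  have h2' := refl_pair_mem_of_nondeg h2 Q hQ h4 hc e b he0 hb (hab.trans hQe.symm) (by
    rw [heb, hQe]
    intro h
    have : (y - 2 * Q a) * (y + 2 * Q a) = 0 := by linear_combination h
    rcases mul_eq_zero.mp this with h | h
    · exact hy1 (by linear_combination h)
    · exact hy2 (by linear_combination h))
  have e' : reflElt Q hQ a ha * reflElt Q hQ b hb =
      (reflElt Q hQ a ha * reflElt Q hQ e he0) * (reflElt Q hQ e he0 * reflElt Q hQ b hb) := by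
    rw [mul_assoc, ← mul_assoc (reflElt Q hQ e he0), reflElt_mul_self, one_mul]
  rw [e']
  exact Subgroup.mul_mem _ h1 h2'

/-- Dimension at least four, more than three scalars: `r_a r_b` for `Q a = Q b`. -/
theorem refl_pair_mem_of_four (h2 : (2 : F) ≠ 0) (Q : QuadraticForm F (ι → F))
    (hQ : (QuadraticMap.polarBilin Q).Nondegenerate) (h4 : 4 ≤ Fintype.card ι)
    (hF : 3 < Fintype.card F) {c : F}
    (hc : c ≠ 0) (a b : ι → F) (ha : Q a ≠ 0) (hb : Q b ≠ 0) (hab : Q b = Q a) :
    reflElt Q hQ a ha * reflElt Q hQ b hb ∈ Subgroup.closure (classReflSet Q c) := by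
  by_cases hnd : QuadraticMap.polar ⇑Q a b ^ 2 = 4 * Q a ^ 2
  swap
  · exact refl_pair_mem_of_nondeg h2 Q hQ h4 hc a b ha hb hab hnd
  have : (QuadraticMap.polar ⇑Q a b - 2 * Q a) * (QuadraticMap.polar ⇑Q a b + 2 * Q a) = 0 := by
    linear_combination hnd
  rcases mul_eq_zero.mp this with h | h
  · exact refl_pair_mem_of_four_aux h2 Q hQ h4 hF hc a b ha hb hab (by linear_combination h)
  · have hnb : Q (-b) ≠ 0 := by rw [QuadraticMap.map_neg]; exact hb
    have := refl_pair_mem_of_four_aux h2 Q hQ h4 hF hc a (-b) ha hnb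
      (by rw [QuadraticMap.map_neg]; exact hab)
      (by rw [QuadraticMap.polar_neg_right]; linear_combination -h)
    rw [reflElt_neg Q hQ b hb hnb] at this
    exact this

omit [Fintype F] in
/-- Dimension two: an isometry fixing a non-zero vector is the identity or a reflection. -/
theorem eq_one_or_refl_of_fixed (Q : QuadraticForm F (ι → F))
    (hQ : (QuadraticMap.polarBilin Q).Nondegenerate) (hcard : Fintype.card ι = 2)
    (g : ↥(Cfsg.isometryGroup F ⇑Q)) {p : ι → F} (hp : p ≠ 0)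
    (hgp : ((g : Matrix.GeneralLinearGroup ι F) : Matrix ι ι F) *ᵥ p = p) :
    g = 1 ∨ ∃ (w : ι → F) (hw : Q w ≠ 0), g = reflElt Q hQ w hw := by
  obtain ⟨L, hLdef⟩ : ∃ L : (ι → F) →ₗ[F] (ι → F),
      L = (((g : Matrix.GeneralLinearGroup ι F) : Matrix ι ι F)).mulVecLin := ⟨_, rfl⟩
  have hL : ∀ x, Q (L x) = Q x := by
    intro x
    rw [hLdef, Matrix.mulVecLin_apply]
    exact isom_preserves g x
  have hpfix : p ∈ fixed L := by
    rw [mem_fixed_iff, hLdef, Matrix.mulVecLin_apply]
    exact hgp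
  have hfix1 : 1 ≤ finrank F (fixed L) := by
    by_contra hcon
    have h0 : finrank F (fixed L) = 0 := by omega
    rw [Submodule.finrank_eq_zero] at h0
    rw [h0] at hpfix
    exact hp ((Submodule.mem_bot F).mp hpfix)
  have hsum := finrank_moved_add_fixed L
  rw [Module.finrank_fintype_fun_eq_card, hcard] at hsum
  have hmat : ∀ A : Matrix ι ι F, L = A.mulVecLin →
      ((g : Matrix.GeneralLinearGroup ι F) : Matrix ι ι F) = A := by
    intro A hA
    rw [Matrix.ext_iff_mulVec]
    intro x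
    have := LinearMap.congr_fun hA x
    rw [hLdef, Matrix.mulVecLin_apply, Matrix.mulVecLin_apply] at this
    exact this
  by_cases h0 : finrank F (moved L) = 0
  · left
    rw [Submodule.finrank_eq_zero, moved_eq_bot_iff] at h0
    apply isom_ext
    rw [hmat 1 (by rw [h0, Matrix.mulVecLin_one]; rfl)]
    rfl
  · right
    have h1 : finrank F (moved L) = 1 := by omega
    obtain ⟨x, hx, hLx⟩ := eq_refl_of_finrank_moved_eq_one Q hQ hL h1
    refine ⟨x, hx, ?_⟩
    apply isom_ext
    rw [reflElt_coe]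
    exact hmat _ (by rw [hLx, reflectionMatrix_mulVecLin])

omit [DecidableEq ι] [Fintype F] in
/-- Dimension two: distinct vectors of the same non-zero norm have non-singular difference. -/
theorem quad_sub_ne_zero_of_card_two (h2 : (2 : F) ≠ 0) (Q : QuadraticForm F (ι → F))
    (hQ : (QuadraticMap.polarBilin Q).Nondegenerate) (hcard : Fintype.card ι = 2)
    {p p' : ι → F} (hp : Q p ≠ 0) (hpp' : Q p' = Q p) (hne : p' ≠ p) : Q (p' - p) ≠ 0 := by
  intro hQw
  obtain ⟨w, hwdef⟩ : ∃ w, w = p' - p := ⟨_, rfl⟩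
  rw [← hwdef] at hQw
  have hw0 : w ≠ 0 := by rw [hwdef]; exact sub_ne_zero.mpr hne
  have hww : QuadraticMap.polar ⇑Q w w = 0 := by rw [polar_self_eq, hQw, mul_zero]
  have hwu : QuadraticMap.polar ⇑Q w (p' + p) = 0 := by
    rw [hwdef, QuadraticMap.polar_sub_left, QuadraticMap.polar_add_right,
      QuadraticMap.polar_add_right, polar_self_eq, polar_self_eq,
      QuadraticMap.polar_comm (⇑Q) p p', hpp']
    ring
  have hrank : finrank F (orth Q (F ∙ w)) = 1 := by
    rw [finrank_orth Q hQ, Module.finrank_fintype_fun_eq_card, hcard, finrank_span_singleton hw0]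
  have hwX : w ∈ orth Q (F ∙ w) := by
    refine (mem_orth_iff Q (F ∙ w) w).mpr fun y hy => ?_
    obtain ⟨α, rfl⟩ := Submodule.mem_span_singleton.mp hy
    rw [QuadraticMap.polar_smul_left, hww, smul_zero]
  have huX : p' + p ∈ orth Q (F ∙ w) := by
    refine (mem_orth_iff Q (F ∙ w) _).mpr fun y hy => ?_
    obtain ⟨α, rfl⟩ := Submodule.mem_span_singleton.mp hy
    rw [QuadraticMap.polar_smul_left, hwu, smul_zero]
  have hne' : (⟨w, hwX⟩ : orth Q (F ∙ w)) ≠ 0 := by
    intro h
    exact hw0 (congrArg Subtype.val h)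
  obtain ⟨lam, hlam⟩ := (finrank_eq_one_iff_of_nonzero' (⟨w, hwX⟩ : orth Q (F ∙ w)) hne').mp
    hrank ⟨p' + p, huX⟩
  have hlam' : lam • w = p' + p := congrArg Subtype.val hlam
  have h2p : (2 : F) • p = (lam - 1) • w := by
    rw [sub_smul, hlam', one_smul, hwdef, two_smul]; abel
  have := congrArg Q h2p
  rw [QuadraticMap.map_smul, QuadraticMap.map_smul, hQw, smul_zero, smul_eq_mul] at this
  rcases mul_eq_zero.mp this with h | h
  · exact h2 (mul_self_eq_zero.mp h)
  · exact hp h

/-- Dimension two: an isometry on which a character taking the value `-1` on all reflections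
takes the value `-1` is a reflection. -/
theorem eq_refl_of_odd (h2 : (2 : F) ≠ 0) (Q : QuadraticForm F (ι → F))
    (hQ : (QuadraticMap.polarBilin Q).Nondegenerate) (hcard : Fintype.card ι = 2)
    (ψ : ↥(Cfsg.isometryGroup F ⇑Q) →* ℤˣ)
    (hψ : ∀ (v : ι → F) (hv : Q v ≠ 0), ψ (reflElt Q hQ v hv) = -1)
    (σ : ↥(Cfsg.isometryGroup F ⇑Q)) (hσ : ψ σ = -1) :
    ∃ (w : ι → F) (hw : Q w ≠ 0), σ = reflElt Q hQ w hw := by
  have hne : (-1 : ℤˣ) ≠ 1 := by decide
  obtain ⟨a, ha1⟩ := exists_vec_quad_eq h2 Q hQ (by omega) 1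
  have ha : Q a ≠ 0 := by rw [ha1]; exact one_ne_zero
  have ha0 : a ≠ 0 := by
    rintro rfl
    exact ha (QuadraticMap.map_zero Q)
  by_cases hfix : ((σ : Matrix.GeneralLinearGroup ι F) : Matrix ι ι F) *ᵥ a = a
  · rcases eq_one_or_refl_of_fixed Q hQ hcard σ ha0 hfix with h | h
    · rw [h, map_one] at hσ
      exact absurd hσ.symm hne
    · exact h
  · obtain ⟨p', hp'def⟩ : ∃ p', p' = ((σ : Matrix.GeneralLinearGroup ι F) : Matrix ι ι F) *ᵥ a :=
      ⟨_, rfl⟩
    have hQp' : Q p' = Q a := by rw [hp'def]; exact isom_preserves σ a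
    have hw : Q (p' - a) ≠ 0 :=
      quad_sub_ne_zero_of_card_two h2 Q hQ hcard ha hQp' (by rw [hp'def]; exact hfix)
    have hτ : (((reflElt Q hQ (p' - a) hw * σ : ↥(Cfsg.isometryGroup F ⇑Q)) :
        Matrix.GeneralLinearGroup ι F) : Matrix ι ι F) *ᵥ a = a := by
      rw [Subgroup.coe_mul, Units.val_mul, ← mulVec_mulVec, ← hp'def, reflElt_coe,
        reflectionMatrix_mulVec]
      have hq : Q (p' - a) = 2 * Q a - QuadraticMap.polar ⇑Q p' a := by
        have h := quad_sub_smul Q p' a 1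
        rw [one_smul] at h
        rw [h, hQp']; ring
      have hpol : QuadraticMap.polar ⇑Q (p' - a) p' = Q (p' - a) := by
        rw [QuadraticMap.polar_sub_left, polar_self_eq, hq, hQp',
          QuadraticMap.polar_comm (⇑Q) a p']
      rw [hpol, inv_mul_cancel₀ hw, one_smul]
      abel
    rcases eq_one_or_refl_of_fixed Q hQ hcard _ ha0 hτ with h | ⟨y, hy, h⟩
    · refine ⟨p' - a, hw, ?_⟩
      have h' : σ = (reflElt Q hQ (p' - a) hw)⁻¹ := eq_inv_of_mul_eq_one_right h
      rw [h']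
      exact inv_eq_of_mul_eq_one_left (reflElt_mul_self Q hQ _ hw)
    · exfalso
      have := congrArg ψ h
      rw [map_mul, hψ, hψ, hσ] at this
      revert this
      decide

/-- Dimension two: the product of two reflections of the other class is a product of two
reflections of class `c`. -/
theorem refl_pair_mem_of_two (h2 : (2 : F) ≠ 0) (Q : QuadraticForm F (ι → F))
    (hQ : (QuadraticMap.polarBilin Q).Nondegenerate) (hcard : Fintype.card ι = 2) {c : F}
    (hc : c ≠ 0) (a b : ι → F) (ha : Q a ≠ 0) (hb : Q b ≠ 0) (hac : ¬ IsSquare (c * Q a))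
    (hbc : ¬ IsSquare (c * Q b)) :
    reflElt Q hQ a ha * reflElt Q hQ b hb ∈ Subgroup.closure (classReflSet Q c) := by
  obtain ⟨b₀, hb₀⟩ := exists_not_isSquare (F := F) h2
  have hψ : ∀ (v : ι → F) (hv : Q v ≠ 0),
      (signChar (⇑Q) 1 * signChar (⇑Q) b₀) (reflElt Q hQ v hv) = -1 := by
    intro v hv
    rw [MonoidHom.mul_apply]
    by_cases hsq : IsSquare (Q v)
    · rw [((signChar_reflElt_values h2 Q hQ hb₀ v hv).1 hsq).1,
        ((signChar_reflElt_values h2 Q hQ hb₀ v hv).1 hsq).2]; decide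
    · rw [((signChar_reflElt_values h2 Q hQ hb₀ v hv).2 hsq).1,
        ((signChar_reflElt_values h2 Q hQ hb₀ v hv).2 hsq).2]; decide
  obtain ⟨v, hQv⟩ := exists_vec_quad_eq h2 Q hQ (by omega) c
  have hv0 : Q v ≠ 0 := by rw [hQv]; exact hc
  have hvsq : IsSquare (c * Q v) := by rw [hQv]; exact ⟨c, rfl⟩
  obtain ⟨σ, hσdef⟩ : ∃ σ, σ = reflElt Q hQ v hv0 * reflElt Q hQ a ha * reflElt Q hQ b hb :=
    ⟨_, rfl⟩
  have hσψ : (signChar (⇑Q) 1 * signChar (⇑Q) b₀) σ = -1 := by
    rw [hσdef, map_mul, map_mul, hψ, hψ, hψ]; decide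
  obtain ⟨w, hw, hσw⟩ := eq_refl_of_odd h2 Q hQ hcard _ hψ σ hσψ
  have hσχ : signChar (⇑Q) c σ = -1 := by
    rw [hσdef, map_mul, map_mul, (signChar_reflElt h2 Q hQ hc v hv0).1 hvsq,
      (signChar_reflElt h2 Q hQ hc a ha).2 hac, (signChar_reflElt h2 Q hQ hc b hb).2 hbc]
    decide
  have hwsq : IsSquare (c * Q w) := by
    by_contra hns
    rw [hσw, (signChar_reflElt h2 Q hQ hc w hw).2 hns] at hσχ
    revert hσχ
    decide
  have e : reflElt Q hQ a ha * reflElt Q hQ b hb = reflElt Q hQ v hv0 * reflElt Q hQ w hw := by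
    rw [← hσw, hσdef, ← mul_assoc, ← mul_assoc, reflElt_mul_self, one_mul]
  rw [e]
  exact Subgroup.mul_mem _ (reflElt_mem_classRefl Q hQ hc v hv0 hvsq)
    (reflElt_mem_classRefl Q hQ hc w hw hwsq)

/-- For `q` odd, `n ≥ 2` even and `(n, q) ≠ (4, 3)`: the reflections with norms in a fixed
square class generate a subgroup of index two of the isometry group. -/
theorem index_classRefl (h2 : (2 : F) ≠ 0) (Q : QuadraticForm F (ι → F))
    (hQ : (QuadraticMap.polarBilin Q).Nondegenerate) (hn : 2 ≤ Fintype.card ι)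
    (heven : Even (Fintype.card ι)) (h43 : ¬ (Fintype.card ι = 4 ∧ Fintype.card F = 3))
    {c : F} (hc : c ≠ 0) : (Subgroup.closure (classReflSet Q c)).index = 2 := by
  have hnorm := classRefl_normal Q hQ hc
  have hne : (-1 : ℤˣ) ≠ 1 := by decide
  obtain ⟨b₀, hb₀⟩ := exists_not_isSquare (F := F) h2
  -- the character which is `1` exactly on the reflections of class `c`
  obtain ⟨χ, hχdef⟩ : ∃ χ : ↥(Cfsg.isometryGroup F ⇑Q) →* ℤˣ,
      χ = signChar (⇑Q) c * (signChar (⇑Q) 1 * signChar (⇑Q) b₀) := ⟨_, rfl⟩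
  have hψ : ∀ (v : ι → F) (hv : Q v ≠ 0),
      (signChar (⇑Q) 1 * signChar (⇑Q) b₀) (reflElt Q hQ v hv) = -1 := by
    intro v hv
    rw [MonoidHom.mul_apply]
    by_cases hsq : IsSquare (Q v)
    · rw [((signChar_reflElt_values h2 Q hQ hb₀ v hv).1 hsq).1,
        ((signChar_reflElt_values h2 Q hQ hb₀ v hv).1 hsq).2]; decide
    · rw [((signChar_reflElt_values h2 Q hQ hb₀ v hv).2 hsq).1,
        ((signChar_reflElt_values h2 Q hQ hb₀ v hv).2 hsq).2]; decide
  have hχc : ∀ (v : ι → F) (hv : Q v ≠ 0), IsSquare (c * Q v) →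
      χ (reflElt Q hQ v hv) = 1 := by
    intro v hv hsq
    rw [hχdef, MonoidHom.mul_apply, hψ, (signChar_reflElt h2 Q hQ hc v hv).1 hsq]; decide
  have hχd : ∀ (v : ι → F) (hv : Q v ≠ 0), ¬ IsSquare (c * Q v) →
      χ (reflElt Q hQ v hv) = -1 := by
    intro v hv hsq
    rw [hχdef, MonoidHom.mul_apply, hψ, (signChar_reflElt h2 Q hQ hc v hv).2 hsq]; decide
  -- a vector of the other class
  obtain ⟨a₁, ha₁⟩ := exists_vec_quad_eq h2 Q hQ hn (c * b₀)
  have hb₀0 : b₀ ≠ 0 := fun h => hb₀ ⟨0, by simp [h]⟩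
  have ha₁0 : Q a₁ ≠ 0 := by rw [ha₁]; exact mul_ne_zero hc hb₀0
  have ha₁c : ¬ IsSquare (c * Q a₁) := by
    rw [ha₁]
    intro hsq
    apply hb₀
    obtain ⟨s, hs⟩ := hsq
    refine ⟨s / c, ?_⟩
    field_simp
    linear_combination hs
  -- the key lemma
  have key : ∀ (a b : ι → F) (ha0 : Q a ≠ 0) (hb0 : Q b ≠ 0), ¬ IsSquare (c * Q a) →
      ¬ IsSquare (c * Q b) →
      reflElt Q hQ a ha0 * reflElt Q hQ b hb0 ∈ Subgroup.closure (classReflSet Q c) := by
    intro a b ha0 hb0 hac hbc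
    by_cases hcard2 : Fintype.card ι = 2
    · exact refl_pair_mem_of_two h2 Q hQ hcard2 hc a b ha0 hb0 hac hbc
    have h4 : 4 ≤ Fintype.card ι := by
      obtain ⟨k, hk⟩ := heven
      omega
    -- rescale `b`
    obtain ⟨s, hs⟩ := isSquare_mul_of_not_isSquare hac hbc
    have hs0 : s ≠ 0 := by
      rintro rfl
      rw [mul_zero] at hs
      exact mul_ne_zero (mul_ne_zero hc ha0) (mul_ne_zero hc hb0) hs
    obtain ⟨t, htdef⟩ : ∃ t : F, t = c * Q a / s := ⟨_, rfl⟩
    have ht0 : t ≠ 0 := by rw [htdef]; exact div_ne_zero (mul_ne_zero hc ha0) hs0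
    have hQtb : Q (t • b) = Q a := by
      rw [QuadraticMap.map_smul, smul_eq_mul, htdef]
      field_simp
      linear_combination hs
    have htb0 : Q (t • b) ≠ 0 := by rw [hQtb]; exact ha0
    rw [← reflElt_smul Q hQ b hb0 ht0 htb0]
    by_cases h5 : 5 ≤ Fintype.card ι
    · exact refl_pair_mem_of_five h2 Q hQ h5 hc a (t • b) ha0 htb0 hQtb
    · have hcard4 : Fintype.card ι = 4 := by
        obtain ⟨k, hk⟩ := heven
        omega
      have hF3 : Fintype.card F ≠ 3 := fun h => h43 ⟨hcard4, h⟩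
      have hF2 : Fintype.card F ≠ 2 := by
        intro h
        apply h2
        have := FiniteField.cast_card_eq_zero F
        rw [h] at this
        exact_mod_cast this
      have hF1 : 1 < Fintype.card F := Fintype.one_lt_card
      exact refl_pair_mem_of_four h2 Q hQ h4 (by omega) hc a (t • b) ha0 htb0 hQtb
  -- every element lies in the subgroup or in its coset by `r_{a₁}`
  have hall : ∀ (l : List (ι → F)) (hl : ∀ u ∈ l, Q u ≠ 0),
      prodElt Q hQ l hl ∈ Subgroup.closure (classReflSet Q c) ∨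
        reflElt Q hQ a₁ ha₁0 * prodElt Q hQ l hl ∈ Subgroup.closure (classReflSet Q c) := by
    intro l
    induction l with
    | nil =>
      intro hl
      left
      rw [prodElt_nil]
      exact Subgroup.one_mem _
    | cons x l ih =>
      intro hl
      rw [prodElt_cons]
      have hx0 : Q x ≠ 0 := hl x (List.mem_cons_self ..)
      rcases ih (fun u hu => hl u (List.mem_cons_of_mem _ hu)) with h | h
      · by_cases hx : IsSquare (c * Q x)
        · left
          exact Subgroup.mul_mem _ (reflElt_mem_classRefl Q hQ hc x hx0 hx) h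
        · right
          rw [← mul_assoc]
          exact Subgroup.mul_mem _ (key a₁ x ha₁0 hx0 ha₁c hx) h
      · by_cases hx : IsSquare (c * Q x)
        · right
          have e : reflElt Q hQ a₁ ha₁0 * (reflElt Q hQ x hx0 *
              prodElt Q hQ l (fun u hu => hl u (List.mem_cons_of_mem _ hu))) =
              (reflElt Q hQ a₁ ha₁0 * reflElt Q hQ x hx0 * (reflElt Q hQ a₁ ha₁0)⁻¹) *
              (reflElt Q hQ a₁ ha₁0 *
                prodElt Q hQ l (fun u hu => hl u (List.mem_cons_of_mem _ hu))) := by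
            group
          rw [e]
          exact Subgroup.mul_mem _
            (hnorm.conj_mem _ (reflElt_mem_classRefl Q hQ hc x hx0 hx) _) h
        · left
          have e : reflElt Q hQ x hx0 *
              prodElt Q hQ l (fun u hu => hl u (List.mem_cons_of_mem _ hu)) =
              (reflElt Q hQ x hx0 * reflElt Q hQ a₁ ha₁0) * (reflElt Q hQ a₁ ha₁0 *
                prodElt Q hQ l (fun u hu => hl u (List.mem_cons_of_mem _ hu))) := by
            rw [mul_assoc, ← mul_assoc (reflElt Q hQ a₁ ha₁0), reflElt_mul_self, one_mul]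
          rw [e]
          exact Subgroup.mul_mem _ (key x a₁ hx0 ha₁0 hx ha₁c) h
  have hle : Subgroup.closure (classReflSet Q c) ≤ χ.ker := by
    rw [Subgroup.closure_le]
    intro g hg
    obtain ⟨v, t, ht, hv, hmat⟩ := hg
    have hv0 : Q v ≠ 0 := by rw [hv]; exact mul_ne_zero hc (pow_ne_zero 2 ht)
    have hg' : g = reflElt Q hQ v hv0 := isom_ext (by rw [hmat, reflElt_coe])
    rw [SetLike.mem_coe, MonoidHom.mem_ker, hg']
    exact hχc v hv0 ⟨c * t, by rw [hv]; ring⟩
  have hRker : Subgroup.closure (classReflSet Q c) = χ.ker := by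
    apply le_antisymm hle
    intro g hg
    obtain ⟨l, hl, rfl⟩ := exists_eq_prodElt h2 Q hQ g
    rcases hall l hl with h | h
    · exact h
    · exfalso
      have h1 := MonoidHom.mem_ker.mp (hle h)
      rw [map_mul, hχd a₁ ha₁0 ha₁c, MonoidHom.mem_ker.mp hg] at h1
      revert h1
      decide
  rw [hRker]
  have hsurj : Function.Surjective χ := by
    intro e
    rcases Int.units_eq_one_or e with rfl | rfl
    · exact ⟨1, map_one _⟩
    · exact ⟨_, hχd a₁ ha₁0 ha₁c⟩
  rw [Subgroup.index_ker, MonoidHom.range_eq_top.mpr hsurj, Subgroup.card_top,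
    Nat.card_eq_fintype_card, Fintype.card_units_int]

end reflindex

end Cfsg.Agent.Lib.Helper44
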